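import Cfsg.Agent.H2.Generation
import Cfsg.Agent.H2.Card
import Cfsg.Agent.H16.CosetBasePow
import Cfsg.Agent.H16.F4
import Cfsg.Agent.H16.HeOrder
import Cfsg.Agent.H16.HeSpData

/-! The subgroup of index two in the subgroup of index 2058 of He is the symplectic group of dimension four over four elements. -/

set_option autoImplicit false
set_option maxRecDepth 8000
set_option maxHeartbeats 2000000

namespace Cfsg.Agent.H16.HeSp

open Cfsg.Spor EnumData CoxEnum

/-- index set -/
abbrev I4 : Type := Fin 2 ⊕ Fin 2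

/-- position of an index -/
def pos : I4 → Nat
  | .inl i => i.val
  | .inr i => 2 + i.val

/-- vector of a code -/
def dec (c : Nat) (i : I4) : F4 := F4.fromNat (c >>> (2 * pos i) &&& 3)

/-- value of a generator of He -/
noncomputable abbrev val : Nat → He := HeH.val

/-- element of a word -/
noncomputable def el (w : List Nat) : He := ev val w

/-- permutation of the cosets -/
noncomputable abbrev act : He →* Equiv.Perm (Fin HeH.data.n) := HeH.theModel.rho

theorem act_el (w : List Nat) (hw : ∀ g ∈ w, g < 7) (i : Fin HeH.data.n) :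
    ((act (el w) i : Fin HeH.data.n) : Nat) = HeH.data.run w i := by
  rw [el, HeH.theModel.rho_ev]
  exact HeH.valid.perm_word w hw i

theorem el_append (u v : List Nat) : el (u ++ v) = el v * el u := ev_append _ u v

theorem el_reverse (v : List Nat) : el v.reverse = (el v)⁻¹ :=
  ev_reverse _ HeH.theModel.sq v

theorem el_eq {u v : List Nat} (hu : ∀ g ∈ u, g < 7) (hv : ∀ g ∈ v, g < 7)
    (h : (allFixed HeH.base []).all
      (fun i => Nat.beq (HeH.data.run (List.replicate 1 (u ++ v.reverse)).flatten i) i) = true) :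
    el u = el v := by
  have h1 := HeH.theModel.pow_eq_one_of_base HeOrder.card_and_faithful.2 HeH.base_ok HeH.base_prod
    HeOrder.card_and_faithful.1 (u ++ v.reverse) (fun g hg => by
      rcases List.mem_append.mp hg with h | h
      · exact hu g h
      · exact hv g (List.mem_reverse.mp h)) 1 h
  rw [pow_one] at h1
  have h2 : el (u ++ v.reverse) = 1 := h1
  rw [el_append, el_reverse, inv_mul_eq_one] at h2
  exact h2.symm

/-- the word of one of the four generators -/
def gword (k : Nat) : List Nat := genWord.getD k []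

theorem gword_lt : ∀ k, ∀ g ∈ gword k, g < 7 := by
  intro k
  by_cases hk : k < genWord.length
  · have h : genWord.all (fun w => w.all fun l => Nat.ble (l + 1) 7) = true := by decide +kernel
    intro l hl
    rw [gword, List.getD_eq_getElem _ _ hk] at hl
    exact Nat.le_of_ble_eq_true (List.all_eq_true.mp (List.all_eq_true.mp h _ (List.getElem_mem hk)) l hl)
  · intro l hl
    rw [gword, List.getD_eq_default _ _ (Nat.le_of_not_lt hk)] at hl
    cases hl

/-- the four generators -/
noncomputable def gel (k : Nat) : He := el (gword k)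

/-- flatten a word in the generators -/
def flat (w : List Nat) : List Nat := (w.map gword).flatten

theorem el_flat : ∀ w : List Nat, el (flat w) = ev gel w
  | [] => rfl
  | g :: w => by rw [flat, List.map_cons, List.flatten_cons, el_append, ev]; exact congrArg (· * _) (el_flat w)

theorem flat_lt (w : List Nat) : ∀ g ∈ flat w, g < 7 := by
  intro g hg
  obtain ⟨v, hv, hgv⟩ := List.mem_flatten.mp hg
  obtain ⟨k, -, rfl⟩ := List.mem_map.mp hv
  exact gword_lt k g hgv

theorem gel_sq (k : Nat) : gel k * gel k = 1 := by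
  by_cases hk : k < 4
  · have h : ∀ k : Fin 4, (allFixed HeH.base []).all (fun i => Nat.beq
        (HeH.data.run (List.replicate 1 (gword k ++ gword k ++ ([] : List Nat).reverse)).flatten i) i) = true := by
      decide +kernel
    have h2 := el_eq (u := gword k ++ gword k) (v := [])
      (fun g hg => (List.mem_append.mp hg).elim (gword_lt k g) (gword_lt k g)) (by simp) (h ⟨k, hk⟩)
    rw [el_append] at h2
    exact h2
  · have : gword k = [] := List.getD_eq_default _ _ (by
      have : genWord.length = 4 := rfl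
      omega)
    simp [gel, this, el, ev]

/-- point of a coset -/
noncomputable def blk (i : Nat) : Nat := blkArr.get 8 i

/-- transpositions of a generator -/
def swaps (k : Nat) : List (Fin 85 × Fin 85) :=
  (swapList.getD k []).map fun p => (⟨p.1 % 85, Nat.mod_lt _ (by norm_num)⟩, ⟨p.2 % 85, Nat.mod_lt _ (by norm_num)⟩)

/-- permutation of the points for a generator -/
def sigma (k : Nat) : Equiv.Perm (Fin 85) := ((swaps k).map fun p => Equiv.swap p.1 p.2).prod

theorem sign_prod : ∀ l : List (Fin 85 × Fin 85), (∀ p ∈ l, p.1 ≠ p.2) →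
    Equiv.Perm.sign (l.map fun p => Equiv.swap p.1 p.2).prod = (-1) ^ l.length
  | [], _ => by simp
  | p :: l, h => by
    rw [List.map_cons, List.prod_cons, map_mul, Equiv.Perm.sign_swap (h p (List.mem_cons_self ..)),
      sign_prod l fun q hq => h q (List.mem_cons_of_mem _ hq), List.length_cons, pow_succ']

theorem sign_sigma : ∀ k : Fin 4, Equiv.Perm.sign (sigma k) = if (k : Nat) = 3 then -1 else 1 := by
  intro k
  have h : ∀ k : Fin 4, (∀ p ∈ swaps k, p.1 ≠ p.2) ∧
      (-1 : ℤˣ) ^ (swaps k).length = if (k : Nat) = 3 then -1 else 1 := by decide +kernel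
  rw [sigma, sign_prod _ (h k).1, (h k).2]

/-- image of a point under a generator, as a list -/
def sigmaNat (k : Nat) : List Nat := (List.finRange 85).map fun b => (sigma k b : Nat)

theorem gen_blocks : ∀ k : Fin 4, ∀ i, i < HeH.data.n → blk i < 85 →
    blk (HeH.data.run (gword k) i) = (sigmaNat k).getD (blk i) 0 := by
  have h : ∀ k : Fin 4, forceNat 0 (fun _ => allFrom (fun i =>
      forceNat (blk i) fun b => Bool.rec true
        (Nat.beq (blk (HeH.data.run (gword k) i)) ((sigmaNat k).getD b 0)) (Nat.ble (b + 1) 85))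
      HeH.data.n 0) = true := by decide +kernel
  intro k i hi hb
  have h2 := h k
  rw [forceNat_eq] at h2
  have h3 := allFrom_spec h2 i (Nat.zero_le i) (by omega)
  rw [forceNat_eq, show Nat.ble (blk i + 1) 85 = true from Nat.ble_eq_true_of_le hb] at h3
  exact Nat.eq_of_beq_eq_true h3

/-- A pair acts compatibly on cosets and points. -/
def Compat (g : He) (σ : Equiv.Perm (Fin 85)) : Prop :=
  ∀ (i : Fin HeH.data.n) (b : Fin 85), blk i = b → blk ((act g i : Fin HeH.data.n) : Nat) = σ b

theorem compat_gel (k : Fin 4) : Compat (gel k) (sigma k) := by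
  intro i b hb
  rw [gel, act_el _ (gword_lt k), gen_blocks k i i.2 (hb ▸ b.2), hb, sigmaNat,
    List.getD_eq_getElem _ _ (by simpa using b.2)]
  simp

theorem Compat.mul {g h : He} {σ τ : Equiv.Perm (Fin 85)} (h1 : Compat g σ) (h2 : Compat h τ) :
    Compat (g * h) (σ * τ) := by
  intro i b hb
  rw [map_mul, Equiv.Perm.mul_apply, Equiv.Perm.mul_apply]
  exact h1 _ _ (h2 i b hb)

theorem compat_one : Compat 1 1 := by
  intro i b hb
  rw [map_one]
  exact hb

theorem blk_surj : ∀ b : Fin 85, ∃ i : Fin HeH.data.n, blk i = b := by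
  have h : ∀ b : Fin 85, (List.range 2058).any (fun i => Nat.beq (blk i) b) = true := by
    decide +kernel
  intro b
  obtain ⟨i, hi, hb⟩ := List.any_eq_true.mp (h b)
  exact ⟨⟨i, List.mem_range.mp hi⟩, Nat.eq_of_beq_eq_true hb⟩

/-- The subgroup `N`. -/
noncomputable def sub2 : Subgroup He := letterSub gel [0, 1, 2]

theorem gel_mem (k : Nat) (hk : k ∈ ([0, 1, 2] : List Nat)) : gel k ∈ sub2 :=
  Subgroup.subset_closure ⟨k, hk, rfl⟩

theorem compat_sub2 {g : He} (hg : g ∈ sub2) :
    ∃ σ, Compat g σ ∧ Equiv.Perm.sign σ = 1 := by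
  have key : ∀ k ∈ ([0, 1, 2] : List Nat), ∃ σ, Compat (gel k) σ ∧ Equiv.Perm.sign σ = 1 := by
    intro k hk
    have hk4 : k < 4 := by
      simp only [List.mem_cons, List.not_mem_nil, or_false] at hk
      omega
    refine ⟨sigma k, compat_gel ⟨k, hk4⟩, ?_⟩
    rw [show sigma k = sigma ((⟨k, hk4⟩ : Fin 4) : Nat) from rfl, sign_sigma, if_neg]
    simp only [List.mem_cons, List.not_mem_nil, or_false] at hk
    simp only
    omega
  induction hg using Subgroup.closure_induction'' with
  | one => exact ⟨1, compat_one, map_one _⟩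
  | mem x hx => obtain ⟨k, hk, rfl⟩ := hx; exact key k hk
  | inv_mem x hx =>
    obtain ⟨k, hk, rfl⟩ := hx
    rw [inv_eq_of_mul_eq_one_right (gel_sq k)]
    exact key k hk
  | mul a b _ _ ha hb =>
    obtain ⟨σ, h1, h2⟩ := ha
    obtain ⟨τ, h3, h4⟩ := hb
    exact ⟨σ * τ, h1.mul h3, by rw [map_mul, h2, h4, one_mul]⟩

theorem gel_three_not_mem : gel 3 ∉ sub2 := by
  intro h
  obtain ⟨σ, h1, h2⟩ := compat_sub2 h
  have hs : σ = sigma 3 := by
    refine Equiv.ext fun b => ?_
    obtain ⟨i, hi⟩ := blk_surj b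
    exact Fin.ext ((h1 i b hi).symm.trans (compat_gel 3 i b hi))
  rw [hs, show sigma 3 = sigma ((3 : Fin 4) : Nat) from rfl, sign_sigma] at h2
  exact absurd h2 (by decide)

/-- The expected generator list of `H` with the normalising conjugates: a, c, d, e, f, v, uxu, uyu, uzu. -/
def lhsWords : List (List Nat) :=
  [[0], [2], [3], [4], [5], [4,3,2,1,4,3,2,1,4,3,2,1,4,3,2,1,4,3,2,1,4,3,2,1,4,3,2,1],
    gword 3 ++ gword 0 ++ gword 3, gword 3 ++ gword 1 ++ gword 3, gword 3 ++ gword 2 ++ gword 3]

theorem lhs_mem : ∀ j, j < 9 → el (lhsWords.getD j []) ∈ sub2 := by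
  intro j hj
  have h : ∀ j : Fin 9, (allFixed HeH.base []).all (fun i => Nat.beq (HeH.data.run (List.replicate 1
      (lhsWords.getD j [] ++ (flat (memWords.getD j [])).reverse)).flatten i) i) = true ∧
      (lhsWords.getD j []).all (fun g => Nat.ble (g + 1) 7) = true ∧
      (memWords.getD j []).all (fun g => ([0, 1, 2] : List Nat).contains g) = true := by decide +kernel
  obtain ⟨h1, h2, h3⟩ := h ⟨j, hj⟩
  rw [el_eq (v := flat (memWords.getD j [])) (fun g hg => Nat.le_of_ble_eq_true (List.all_eq_true.mp h2 g hg))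
    (flat_lt _) h1, el_flat]
  refine Subgroup.closure_mono (fun x hx => hx) ?_
  exact ev_mem_letterSub gel [0, 1, 2] _ fun g hg => List.contains_iff_mem.mp (List.all_eq_true.mp h3 g hg)

theorem gel_three_conj {n : He} (hn : n ∈ sub2) : gel 3 * n * gel 3 ∈ sub2 := by
  have hsq := gel_sq 3
  induction hn using Subgroup.closure_induction'' with
  | one => rw [mul_one, hsq]; exact one_mem _
  | mem x hx =>
    obtain ⟨k, hk, rfl⟩ := hx
    have : gel 3 * gel k * gel 3 = el (gword 3 ++ gword k ++ gword 3) := by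
      rw [el_append, el_append, mul_assoc]; rfl
    rw [this]
    simp only [List.mem_cons, List.not_mem_nil, or_false] at hk
    rcases hk with rfl | rfl | rfl
    exacts [lhs_mem 6 (by norm_num), lhs_mem 7 (by norm_num), lhs_mem 8 (by norm_num)]
  | inv_mem x hx =>
    obtain ⟨k, hk, rfl⟩ := hx
    rw [inv_eq_of_mul_eq_one_right (gel_sq k)]
    have : gel 3 * gel k * gel 3 = el (gword 3 ++ gword k ++ gword 3) := by
      rw [el_append, el_append, mul_assoc]; rfl
    rw [this]
    simp only [List.mem_cons, List.not_mem_nil, or_false] at hk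
    rcases hk with rfl | rfl | rfl
    exacts [lhs_mem 6 (by norm_num), lhs_mem 7 (by norm_num), lhs_mem 8 (by norm_num)]
  | mul a b _ _ ha hb =>
    have : gel 3 * (a * b) * gel 3 = gel 3 * a * gel 3 * (gel 3 * b * gel 3) := by
      calc gel 3 * (a * b) * gel 3 = gel 3 * a * (gel 3 * gel 3) * b * gel 3 := by rw [hsq]; group
        _ = _ := by group
    rw [this]; exact mul_mem ha hb

theorem inv_three : (gel 3)⁻¹ = gel 3 := inv_eq_of_mul_eq_one_right (gel_sq 3)

/-- `N` together with its translate. -/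
noncomputable def sup2 : Subgroup He where
  carrier := {g | g ∈ sub2 ∨ gel 3 * g ∈ sub2}
  one_mem' := Or.inl (one_mem _)
  mul_mem' := by
    have hsq := gel_sq 3
    rintro a b (ha | ha) (hb | hb)
    · exact Or.inl (mul_mem ha hb)
    · refine Or.inr ?_
      have : gel 3 * (a * b) = gel 3 * a * gel 3 * (gel 3 * b) := by
        calc gel 3 * (a * b) = gel 3 * a * (gel 3 * gel 3) * b := by rw [hsq]; group
          _ = _ := by group
      rw [this]; exact mul_mem (gel_three_conj ha) hb
    · refine Or.inr ?_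
      rw [← mul_assoc]; exact mul_mem ha hb
    · refine Or.inl ?_
      have : a * b = gel 3 * (gel 3 * a) * gel 3 * (gel 3 * b) := by
        calc a * b = (gel 3 * gel 3) * a * (gel 3 * gel 3) * b := by rw [hsq]; group
          _ = _ := by group
      rw [this]; exact mul_mem (gel_three_conj ha) hb
  inv_mem' := by
    intro a ha
    rcases ha with ha | ha
    · exact Or.inl (inv_mem ha)
    · refine Or.inr ?_
      have h := gel_three_conj (inv_mem ha)
      rw [mul_inv_rev, inv_three] at h
      have e : gel 3 * (a⁻¹ * gel 3) * gel 3 = gel 3 * a⁻¹ := by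
        calc gel 3 * (a⁻¹ * gel 3) * gel 3 = gel 3 * a⁻¹ * (gel 3 * gel 3) := by group
          _ = _ := by rw [gel_sq, mul_one]
      rwa [e] at h

theorem gel_three_mem : gel 3 ∈ HeH.sub := by
  have h : (allFixed HeH.base []).all (fun i => Nat.beq (HeH.data.run (List.replicate 1
      (gword 3 ++ ([1, 0, 1, 0] : List Nat).reverse)).flatten i) i) = true := by decide +kernel
  rw [gel, el_eq (gword_lt 3) (by decide) h, HeH.sub_eq]
  exact Subgroup.subset_closure ⟨122, by simp,
    by rw [show nthWord HeH.data.words 122 = [1, 0, 1, 0] by decide +kernel]; rfl⟩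

theorem word_mem (k : Nat) (hk : k ∈ ([117,118,119,120,121,122,123] : List Nat)) :
    el (nthWord HeH.data.words k) ∈ HeH.sub := by
  rw [HeH.sub_eq]; exact Subgroup.subset_closure ⟨k, hk, rfl⟩

theorem sub2_le : sub2 ≤ HeH.sub := by
  rw [sub2, letterSub, Subgroup.closure_le]
  rintro _ ⟨k, hk, rfl⟩
  have hv : el ([4,3,2,1,4,3,2,1,4,3,2,1,4,3,2,1,4,3,2,1,4,3,2,1,4,3,2,1] : List Nat) ∈ HeH.sub := by
    have := word_mem 123 (by simp)
    rwa [show nthWord HeH.data.words 123 = [4,3,2,1,4,3,2,1,4,3,2,1,4,3,2,1,4,3,2,1,4,3,2,1,4,3,2,1]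
      by decide +kernel] at this
  have hone : ∀ j k, k ∈ ([117,118,119,120,121,122,123] : List Nat) →
      nthWord HeH.data.words k = [j] → el [j] ∈ HeH.sub := fun j k hk e => e ▸ word_mem k hk
  simp only [List.mem_cons, List.not_mem_nil, or_false] at hk
  rcases hk with rfl | rfl | rfl
  · have e : gword 0 = [4,3,2,1,4,3,2,1,4,3,2,1,4,3,2,1,4,3,2,1,4,3,2,1,4,3,2,1] ++ [2] ++
        ([4,3,2,1,4,3,2,1,4,3,2,1,4,3,2,1,4,3,2,1,4,3,2,1,4,3,2,1] : List Nat).reverse := by decide +kernel
    rw [SetLike.mem_coe, gel, e, el_append, el_append, el_reverse]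
    exact mul_mem (inv_mem hv) (mul_mem (hone 2 118 (by simp) (by decide +kernel)) hv)
  · have e : gword 1 = [4,3,2,1,4,3,2,1,4,3,2,1,4,3,2,1,4,3,2,1,4,3,2,1,4,3,2,1] ++ [3] ++
        ([4,3,2,1,4,3,2,1,4,3,2,1,4,3,2,1,4,3,2,1,4,3,2,1,4,3,2,1] : List Nat).reverse := by decide +kernel
    rw [SetLike.mem_coe, gel, e, el_append, el_append, el_reverse]
    exact mul_mem (inv_mem hv) (mul_mem (hone 3 119 (by simp) (by decide +kernel)) hv)
  · exact hone 5 121 (by simp) (by decide +kernel)

theorem sub_le_sup2 : HeH.sub ≤ sup2 := by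
  rw [HeH.sub_eq, Subgroup.closure_le]
  rintro _ ⟨k, hk, rfl⟩
  have h : ∀ k ∈ ([117,118,119,120,121,123] : List Nat), ∃ j : Fin 6,
      nthWord HeH.data.words k = lhsWords.getD j [] := by decide +kernel
  simp only [List.mem_cons, List.not_mem_nil, or_false] at hk
  by_cases h122 : k = 122
  · subst h122
    refine Or.inr ?_
    have h : (allFixed HeH.base []).all (fun i => Nat.beq (HeH.data.run (List.replicate 1
        (gword 3 ++ ([1, 0, 1, 0] : List Nat).reverse)).flatten i) i) = true := by decide +kernel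
    have e : gel 3 = ev HeH.val (nthWord HeH.data.words 122) := by
      rw [gel, el_eq (gword_lt 3) (by decide) h,
        show nthWord HeH.data.words 122 = [1, 0, 1, 0] by decide +kernel]
      rfl
    rw [← e, gel_sq]; exact one_mem _
  · obtain ⟨j, hj⟩ := h k (by simp only [List.mem_cons, List.not_mem_nil, or_false]; omega)
    refine Or.inl ?_
    rw [hj]
    exact lhs_mem j (by omega)

theorem relIndex_two : sub2.relIndex HeH.sub = 2 := by
  rw [Subgroup.relIndex, Subgroup.index_eq_two_iff]
  refine ⟨⟨gel 3, gel_three_mem⟩, fun b => ?_⟩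
  rw [Subgroup.mem_subgroupOf, Subgroup.mem_subgroupOf, Subgroup.coe_mul]
  by_cases hb : (b : He) ∈ sub2
  · refine Or.inr ⟨hb, fun h => gel_three_not_mem ?_⟩
    have := mul_mem (inv_mem hb) h
    rwa [inv_mul_cancel_left] at this
  · refine Or.inl ⟨?_, hb⟩
    rcases sub_le_sup2 b.2 with h | h
    · exact absurd h hb
    · have h2 := gel_three_conj h
      rwa [← mul_assoc, gel_sq, one_mul] at h2

theorem card_sub2 : Nat.card sub2 = 979200 := by
  have h := Subgroup.relIndex_mul_relIndex ⊥ sub2 HeH.sub bot_le sub2_le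
  rw [Subgroup.relIndex_bot_left, Subgroup.relIndex_bot_left, relIndex_two] at h
  have h2 := Subgroup.index_mul_card HeH.sub
  rw [HeH.index_sub, HeOrder.card_and_faithful.1] at h2
  omega

/-- matrix of a generator -/
def mat (k : Nat) : Matrix I4 I4 F4 := fun i j =>
  F4.fromNat ((genMat.getD k []).getD (4 * pos i + pos j) 0)

theorem mat_mem : ∀ k : Fin 3, mat k ∈ Matrix.symplecticGroup (Fin 2) F4 := by
  intro k
  rw [SymplecticGroup.mem_iff]
  revert k
  decide +kernel

/-- generator in the symplectic group -/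
def spGen (k : Fin 3) : Matrix.symplecticGroup (Fin 2) F4 := ⟨mat k, mat_mem k⟩

theorem spGen_sq : ∀ k : Fin 3, mat k * mat k = 1 := by decide +kernel

/-- vector of a point -/
def vec (b : Fin 85) : I4 → F4 := dec (vecList.getD b 0)

/-- A pair acts compatibly on points and vectors. -/
def LinCompat (g : He) (A : Matrix I4 I4 F4) : Prop :=
  ∀ (i : Fin HeH.data.n) (b : Fin 85), blk i = b → ∃ (b' : Fin 85) (c : F4),
    blk ((act g i : Fin HeH.data.n) : Nat) = b' ∧ Matrix.mulVec A (vec b) = c • vec b'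

theorem linCompat_gen (k : Fin 3) : LinCompat (gel k) (mat k) := by
  intro i b hb
  have hk : (k : Nat) < 4 := by omega
  obtain ⟨c, hc⟩ : ∃ c : F4, Matrix.mulVec (mat k) (vec b) = c • vec (sigma k b) := by
    revert b
    have h : ∀ k : Fin 3, ∀ b : Fin 85, ∃ c : F4,
        Matrix.mulVec (mat k) (vec b) = c • vec (sigma k b) := by decide +kernel
    exact fun b _ => h k b
  exact ⟨sigma k b, c, compat_gel ⟨k, hk⟩ i b hb, hc⟩

theorem LinCompat.mul {g h : He} {A B : Matrix I4 I4 F4} (h1 : LinCompat g A) (h2 : LinCompat h B) :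
    LinCompat (g * h) (A * B) := by
  intro i b hb
  obtain ⟨b1, c1, e1, e2⟩ := h2 i b hb
  obtain ⟨b2, c2, e3, e4⟩ := h1 _ b1 e1
  refine ⟨b2, c1 * c2, by rw [map_mul, Equiv.Perm.mul_apply]; exact e3, ?_⟩
  rw [← Matrix.mulVec_mulVec, e2, Matrix.mulVec_smul, e4, smul_smul]

/-- the pairs -/
noncomputable def pairs : Subgroup (He × Matrix.symplecticGroup (Fin 2) F4) :=
  Subgroup.closure (Set.range fun k : Fin 3 => (gel k, spGen k))

theorem pairs_compat {p : He × Matrix.symplecticGroup (Fin 2) F4} (hp : p ∈ pairs) :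
    LinCompat p.1 (p.2 : Matrix I4 I4 F4) := by
  induction hp using Subgroup.closure_induction'' with
  | one =>
    intro i b hb
    exact ⟨b, 1, by rw [Prod.fst_one, map_one]; exact hb, by simp⟩
  | mem x hx => obtain ⟨k, rfl⟩ := hx; exact linCompat_gen k
  | inv_mem x hx =>
    obtain ⟨k, rfl⟩ := hx
    have e : (gel k, spGen k)⁻¹ = (gel k, spGen k) := inv_eq_of_mul_eq_one_right
      (Prod.ext (gel_sq k) (Subtype.ext (spGen_sq k)))
    show LinCompat ((gel k, spGen k)⁻¹).1 _
    rw [e]
    exact linCompat_gen k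
  | mul a b _ _ ha hb => exact ha.mul hb

theorem fst_injective : Function.Injective ((MonoidHom.fst He _).comp pairs.subtype) := by
  refine (injective_iff_map_eq_one _).mpr fun p hp => ?_
  have h := pairs_compat p.2
  change (Prod.fst (p : He × Matrix.symplecticGroup (Fin 2) F4)) = 1 at hp
  rw [hp] at h
  set A : Matrix I4 I4 F4 := ((p : He × Matrix.symplecticGroup (Fin 2) F4).2 : Matrix I4 I4 F4) with hA
  have hfix : ∀ b : Fin 85, ∃ c : F4, Matrix.mulVec A (vec b) = c • vec b := by
    intro b
    obtain ⟨i, hi⟩ := blk_surj b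
    obtain ⟨b', c, e1, e2⟩ := h i b hi
    rw [map_one] at e1
    have : b' = b := Fin.ext (e1.symm.trans hi)
    exact ⟨c, this ▸ e2⟩
  have hv : ∀ v ∈ ([1, 4, 16, 64, 85] : List Nat), ∃ b : Fin 85, vec b = dec v := by decide +kernel
  have hc : ∀ v ∈ ([1, 4, 16, 64, 85] : List Nat), ∃ c : F4, Matrix.mulVec A (dec v) = c • dec v := by
    intro v hv'
    obtain ⟨b, hb⟩ := hv v hv'
    rw [← hb]; exact hfix b
  have hunit : ∀ j : I4, dec (4 ^ pos j) = Pi.single j 1 ∧
      4 ^ pos j ∈ ([1, 4, 16, 64, 85] : List Nat) := by decide +kernel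
  obtain ⟨c, hall⟩ := hc 85 (by simp)
  have hdiag : ∀ j i : I4, A i j = if i = j then c else 0 := by
    intro j i
    have hj : ∀ j : I4, ∃ d : F4, ∀ i, A i j = if i = j then d else 0 := by
      intro j
      obtain ⟨d, hd⟩ := hc _ (hunit j).2
      refine ⟨d, fun i => ?_⟩
      have h2 := congrFun hd i
      rw [(hunit j).1, Matrix.mulVec_single_one, Matrix.col_apply, Pi.smul_apply, Pi.single_apply,
        smul_eq_mul] at h2
      rw [h2]; split <;> simp
    choose d hd using hj
    have h85 : ∀ i : I4, dec 85 i = 1 := by decide +kernel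
    have h3 := congrFun hall i
    simp only [Matrix.mulVec, dotProduct, hd, h85, mul_one, Finset.sum_ite_eq, Finset.mem_univ,
      if_true, Pi.smul_apply, smul_eq_mul] at h3
    rw [hd]
    split
    · rename_i hij; rw [← hij, h3]
    · rfl
  have hsq : c = 1 := by
    have hmem := H2.mem_symplecticGroup_iff.mp (p : He × Matrix.symplecticGroup (Fin 2) F4).2.2 (dec 1) (dec 16)
    rw [← hA] at hmem
    have hAc : A = Matrix.diagonal fun _ => c := by
      ext i j; rw [hdiag j i, Matrix.diagonal_apply]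
    rw [hAc] at hmem
    revert hmem
    clear_value A
    clear hAc hdiag hA hall hfix hc h
    revert c
    decide +kernel
  refine Subtype.ext (Prod.ext hp (Subtype.ext ?_))
  show A = 1
  ext i j
  rw [hdiag j i, hsq, Matrix.one_apply]

theorem fst_range : ((MonoidHom.fst He _).comp pairs.subtype).range = sub2 := by
  rw [MonoidHom.range_comp, Subgroup.range_subtype, pairs, MonoidHom.map_closure, sub2, letterSub]
  congr 1
  ext x
  constructor
  · rintro ⟨_, ⟨k, rfl⟩, rfl⟩
    exact ⟨k, by fin_cases k <;> simp, rfl⟩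
  · rintro ⟨k, hk, rfl⟩
    simp only [List.mem_cons, List.not_mem_nil, or_false] at hk
    rcases hk with rfl | rfl | rfl
    exacts [⟨_, ⟨0, rfl⟩, rfl⟩, ⟨_, ⟨1, rfl⟩, rfl⟩, ⟨_, ⟨2, rfl⟩, rfl⟩]

/-- image of a code -/
noncomputable def img (k c : Nat) : Nat := actArr.get 8 (Nat.add (Nat.mul k 256) c)

theorem img_ok : ∀ k : Fin 3, ∀ c : Fin 256,
    img k c < 256 ∧ Matrix.mulVec (mat k) (dec c) = dec (img k c) := by decide +kernel

/-- word value in the symplectic group -/
def spWord (w : List (Fin 3)) : Matrix.symplecticGroup (Fin 2) F4 :=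
  w.foldl (fun m k => spGen k * m) 1

/-- run of a word on codes -/
noncomputable def runImg : List (Fin 3) → Nat → Nat
  | [], c => c
  | k :: w, c => runImg w (img k c)

theorem foldl_sp (w : List (Fin 3)) : ∀ m : Matrix.symplecticGroup (Fin 2) F4,
    w.foldl (fun m k => spGen k * m) m = spWord w * m := by
  induction w with
  | nil => intro m; simp [spWord]
  | cons k w ih =>
    intro m
    simp only [List.foldl_cons, spWord]
    rw [ih, ih (spGen k * 1), mul_one, mul_assoc]

theorem spWord_apply : ∀ (w : List (Fin 3)) (c : Nat), c < 256 →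
    Matrix.mulVec (spWord w : Matrix I4 I4 F4) (dec c) = dec (runImg w c)
  | [], c, _ => by simp [spWord, runImg]
  | k :: w, c, hc => by
    obtain ⟨h1, h2⟩ := img_ok k ⟨c, hc⟩
    rw [spWord, List.foldl_cons, foldl_sp, mul_one, Submonoid.coe_mul, ← Matrix.mulVec_mulVec]
    show Matrix.mulVec (spWord w : Matrix I4 I4 F4) (Matrix.mulVec (mat k) (dec c)) = _
    rw [h2, spWord_apply w _ h1]
    rfl

theorem spWord_mem (w : List (Fin 3)) :
    spWord w ∈ ((MonoidHom.snd He _).comp pairs.subtype).range := by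
  induction w with
  | nil => exact one_mem _
  | cons k w ih =>
    rw [spWord, List.foldl_cons, foldl_sp, mul_one]
    exact mul_mem ih ⟨⟨(gel k, spGen k), Subgroup.subset_closure ⟨k, rfl⟩⟩, rfl⟩

/-- the word of the transvection -/
def transvW : List (Fin 3) := transvWord.map fun k => ⟨k % 3, Nat.mod_lt _ (by norm_num)⟩

theorem transv_eq : spWord transvW = H2.transv (dec 1) 1 := by
  apply Subtype.ext
  rw [H2.coe_transv]
  refine Matrix.ext_of_mulVec_single fun j => ?_
  have hunit : ∀ j : I4, dec (4 ^ pos j) = Pi.single j 1 ∧ 4 ^ pos j < 256 ∧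
      dec (runImg transvW (4 ^ pos j)) =
        dec (4 ^ pos j) + ((1 : F4) * Cfsg.sympForm 2 F4 (dec (4 ^ pos j)) (dec 1)) • dec 1 := by
    decide +kernel
  obtain ⟨h1, h2, h3⟩ := hunit j
  rw [← h1, spWord_apply _ _ h2, H2.sympTransvection_mulVec, h3]

theorem snd_surjective : Function.Surjective ((MonoidHom.snd He _).comp pairs.subtype) := by
  rw [← MonoidHom.range_eq_top]
  set R := ((MonoidHom.snd He _).comp pairs.subtype).range with hR
  have hgen : ∀ k : Fin 3, spGen k ∈ R := fun k => by
    have := spWord_mem [k]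
    rwa [show spWord [k] = spGen k from mul_one _] at this
  have horb : ∀ n, n < orbitList.length →
      H2.transv (dec (orbitList.getD n (0, 0, 0)).1) 1 ∈ R := by
    intro n
    induction n using Nat.strong_induction_on with
    | _ n ih =>
      intro hn
      have h : allFrom (fun n => forceNat n fun n =>
          (Nat.beq n 0 && Nat.beq (orbitList.getD n (0, 0, 0)).1 1) ||
          (Nat.ble ((orbitList.getD n (0, 0, 0)).2.1 + 1) n &&
            Nat.ble ((orbitList.getD n (0, 0, 0)).2.2 + 1) 3 &&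
            Nat.ble ((orbitList.getD (orbitList.getD n (0, 0, 0)).2.1 (0, 0, 0)).1 + 1) 256 &&
            Nat.beq (img (orbitList.getD n (0, 0, 0)).2.2
              (orbitList.getD (orbitList.getD n (0, 0, 0)).2.1 (0, 0, 0)).1)
              (orbitList.getD n (0, 0, 0)).1)) orbitList.length 0 = true := by decide +kernel
      have h2 := allFrom_spec h n (Nat.zero_le n) (by omega)
      simp only [forceNat_eq, Bool.or_eq_true, Bool.and_eq_true] at h2
      rcases h2 with ⟨-, h2⟩ | ⟨⟨⟨h3, h4⟩, h5⟩, h6⟩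
      · rw [Nat.eq_of_beq_eq_true h2, ← transv_eq]
        exact spWord_mem _
      · have hp := Nat.le_of_ble_eq_true h3
        have hk := Nat.le_of_ble_eq_true h4
        have hmem := ih (orbitList.getD n (0, 0, 0)).2.1 (by omega) (by omega)
        obtain ⟨-, e⟩ := img_ok ⟨_, hk⟩ ⟨_, Nat.le_of_ble_eq_true h5⟩
        rw [← Nat.eq_of_beq_eq_true h6, ← e]
        rw [show mat (orbitList.getD n (0, 0, 0)).2.2 =
          ((spGen ⟨_, hk⟩ : Matrix.symplecticGroup (Fin 2) F4) : Matrix I4 I4 F4) from rfl,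
          ← H2.conj_transv]
        exact mul_mem (mul_mem (hgen _) hmem) (inv_mem (hgen _))
  have hall : ∀ v : I4 → F4, v = 0 ∨ ∃ n, n < orbitList.length ∧ dec (orbitList.getD n (0, 0, 0)).1 = v := by
    have h : ∀ a b c d : F4, (a, b, c, d) = (0, 0, 0, 0) ∨ (orbitList.map fun p =>
        (dec p.1 (.inl 0), dec p.1 (.inl 1), dec p.1 (.inr 0), dec p.1 (.inr 1))).contains (a, b, c, d) = true := by
      decide +kernel
    intro v
    rcases h (v (.inl 0)) (v (.inl 1)) (v (.inr 0)) (v (.inr 1)) with h | h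
    · left
      simp only [Prod.mk.injEq] at h
      funext i
      rcases i with i | i <;> fin_cases i <;> simp [h.1, h.2.1, h.2.2.1, h.2.2.2]
    · right
      obtain ⟨p, hp, e⟩ := List.mem_map.mp (List.contains_iff_mem.mp h)
      obtain ⟨n, hn, rfl⟩ := List.getElem_of_mem hp
      refine ⟨n, hn, ?_⟩
      rw [List.getD_eq_getElem _ _ hn]
      simp only [Prod.mk.injEq] at e
      funext i
      rcases i with i | i <;> fin_cases i
      exacts [e.1, e.2.1, e.2.2.1, e.2.2.2]
  have hsqrt : ∀ c : F4, ∃ a : F4, a * a = c := by decide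
  rw [eq_top_iff, ← H2.closure_transv_eq_top, Subgroup.closure_le]
  rintro _ ⟨v, c, rfl⟩
  obtain ⟨a, rfl⟩ := hsqrt c
  rw [← mul_one (a * a), ← H2.transv_smul]
  rcases hall (a • v) with h | ⟨n, hn, h⟩
  · rw [h]
    have : H2.transv (0 : I4 → F4) (1 : F4) = 1 := by
      have := H2.transv_smul (R := F4) (0 : I4 → F4) 0 1
      rwa [zero_smul, zero_mul, zero_mul, H2.transv_zero] at this
    rw [this]; exact one_mem _
  · rw [← h]; exact horb n hn

theorem card_sp : Nat.card (Matrix.symplecticGroup (Fin 2) F4) = 979200 := by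
  rw [H2.card_sp, Nat.card_eq_fintype_card, F4.card_eq]
  decide +kernel

theorem nonempty_equiv : Nonempty (sub2 ≃* Matrix.symplecticGroup (Fin 2) F4) := by
  let e1 := (MonoidHom.ofInjective fst_injective).trans (MulEquiv.subgroupCongr fst_range)
  have hc : Nat.card pairs = Nat.card (Matrix.symplecticGroup (Fin 2) F4) := by
    rw [Nat.card_congr e1.toEquiv, card_sub2, card_sp]
  have : Finite pairs := Nat.finite_of_card_ne_zero (by rw [hc, card_sp]; norm_num)
  exact ⟨e1.symm.trans (MulEquiv.ofBijective _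
    ((Nat.bijective_iff_surjective_and_card _).mpr ⟨snd_surjective, hc⟩))⟩

theorem main : ∃ (N : Subgroup HeH.sub) (K : Type) (_ : Field K) (_ : Fintype K), N.Normal ∧ N.index = 2 ∧
    Fintype.card K = 4 ∧ Nonempty (N ≃* Matrix.symplecticGroup (Fin 2) K) := by
  obtain ⟨e⟩ := nonempty_equiv
  refine ⟨sub2.subgroupOf HeH.sub, F4, inferInstance, inferInstance, ?_, relIndex_two, F4.card_eq,
    ⟨(Subgroup.subgroupOfEquivOfLe sub2_le).trans e⟩⟩
  exact Subgroup.normal_of_index_eq_two relIndex_two

end Cfsg.Agent.H16.HeSp
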