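import Cfsg.Agent.H1.Generation
import Cfsg.Agent.H1.Orders
import Cfsg.Agent.H16.ON7Order
import Cfsg.Agent.H16.ON7NData

/-! The subgroup of index 122760 of the O'Nan group has a subgroup of index two isomorphic to PSL(3,7). -/

set_option autoImplicit false
set_option maxRecDepth 8000
set_option maxHeartbeats 2000000

namespace Cfsg.Agent.H16.ON7N

open Cfsg.Spor EnumData CoxEnum Matrix

instance factSeven : Fact (Nat.Prime 7) := ⟨by norm_num⟩

/-- vectors -/
abbrev V3 : Type := Fin 3 → ZMod 7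

/-- the word of a generator of `N` -/
def gw (k : Fin 5) : List Nat := [(k : Nat) + 1, 0]

/-- permutation of the cosets -/
noncomputable abbrev act : ON7.Grp →* Equiv.Perm (Fin ON7H.data.n) := ON7H.theModel.rho

theorem gw_lt : ∀ k : Fin 5, ∀ g ∈ gw k, g < ON7H.data.ng := by
  intro k g hg
  have : ON7H.data.ng = 7 := rfl
  simp only [gw, List.mem_cons, List.not_mem_nil, or_false] at hg
  omega

/-- the generators of `N` -/
noncomputable def gel (k : Fin 5) : ON7.Grp := ev ON7H.val (gw k)

theorem act_gel (k : Fin 5) (i : Fin ON7H.data.n) :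
    ((act (gel k) i : Fin ON7H.data.n) : Nat) = ON7H.data.run (gw k) i := by
  rw [gel, ON7H.theModel.rho_ev]
  exact ON7H.valid.perm_word _ (gw_lt k) i

/-- point of a coset -/
noncomputable def blk (i : Nat) : Nat :=
  forceNat (posArr.get 13 i) fun j =>
    Bool.rec 63 (bidArr.get 6 j) (Nat.ble (j + 1) 6384 && Nat.beq (ptsArr.get 18 j) i)

theorem blk_spec {i : Nat} (h : blk i < 57) : ∃ j, j < 6384 ∧ ptsArr.get 18 j = i := by
  rw [blk, forceNat_eq] at h
  cases hc : (Nat.ble (posArr.get 13 i + 1) 6384 && Nat.beq (ptsArr.get 18 (posArr.get 13 i)) i) with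
  | false => rw [hc] at h; exact absurd h (by simp)
  | true =>
    rw [Bool.and_eq_true] at hc
    exact ⟨_, Nat.le_of_ble_eq_true hc.1, Nat.eq_of_beq_eq_true hc.2⟩

/-- coset of a point -/
def rep (b : Nat) : Nat := repList.getD b 0

theorem rep_ok : ∀ b : Fin 57, rep b < 122760 ∧ blk (rep b) = b := by decide +kernel

/-- image of a point -/
noncomputable def sigma (k : Fin 5) (b : Nat) : Nat := blk (ON7H.data.run (gw k) (rep b))

/-- vector of a point -/
def vec (b : Nat) : V3 := fun i => (((vecList.getD b []).getD i 0 : Nat) : ZMod 7)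

/-- matrix of a generator -/
def mat (k : Fin 5) : Matrix (Fin 3) (Fin 3) (ZMod 7) :=
  fun i j => (((matList.getD k []).getD (3 * (i : Nat) + j) 0 : Nat) : ZMod 7)

theorem det_mat : ∀ k : Fin 5, (mat k).det = 1 := by
  intro k
  rw [Matrix.det_fin_three]
  revert k
  decide +kernel

/-- generator in the special linear group -/
def slGen (k : Fin 5) : SpecialLinearGroup (Fin 3) (ZMod 7) := ⟨mat k, det_mat k⟩

theorem sigma_ok : ∀ k : Fin 5, ∀ b : Fin 57, sigma k b < 57 ∧
    ∃ s : ZMod 7, ∀ i : Fin 3, (mat k *ᵥ vec b) i = s * vec (sigma k b) i := by decide +kernel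

theorem step_ok : ∀ k : Fin 5, allFrom (fun j => forceNat (ptsArr.get 18 j) fun i =>
    forceNat (blk i) fun b => forceNat (sigma k b) fun c =>
      Nat.beq (blk (ON7H.data.run (gw k) i)) c) 6384 0 = true := by decide +kernel

/-- A pair acts compatibly on blocks of cosets and on points. -/
def Compat (g : ON7.Grp) (A : Matrix (Fin 3) (Fin 3) (ZMod 7)) : Prop :=
  ∀ b, b < 57 → ∃ (b' : Nat) (s : ZMod 7), b' < 57 ∧ A *ᵥ vec b = s • vec b' ∧
    ∀ i : Fin ON7H.data.n, blk i = b → blk ((act g i : Fin ON7H.data.n) : Nat) = b'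

theorem compat_gen (k : Fin 5) : Compat (gel k) (mat k) := by
  intro b hb
  obtain ⟨h1, s, hs⟩ := sigma_ok k ⟨b, hb⟩
  refine ⟨sigma k b, s, h1, funext fun i => (hs i).trans (by simp), fun i hib => ?_⟩
  obtain ⟨j, hj, hji⟩ := blk_spec (i := (i : Nat)) (by rw [hib]; exact hb)
  have h := allFrom_spec (step_ok k) j (Nat.zero_le j) (by omega)
  simp only [forceNat_eq, hji, hib] at h
  rw [act_gel]
  exact Nat.eq_of_beq_eq_true h

theorem Compat.mul {g h : ON7.Grp} {A B : Matrix (Fin 3) (Fin 3) (ZMod 7)} (h1 : Compat g A)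
    (h2 : Compat h B) : Compat (g * h) (A * B) := by
  intro b hb
  obtain ⟨b1, c1, hb1, e1, e2⟩ := h2 b hb
  obtain ⟨b2, c2, hb2, e3, e4⟩ := h1 b1 hb1
  refine ⟨b2, c1 * c2, hb2, ?_, fun i hib => ?_⟩
  · rw [← Matrix.mulVec_mulVec, e1, Matrix.mulVec_smul, e3, smul_smul]
  · rw [map_mul, Equiv.Perm.mul_apply]
    exact e4 _ (e2 i hib)

theorem compat_one : Compat 1 1 := fun b hb =>
  ⟨b, 1, hb, by simp, fun i hib => by rw [map_one]; exact hib⟩

/-- the pairs -/
noncomputable def pairs : Subgroup (ON7.Grp × SpecialLinearGroup (Fin 3) (ZMod 7)) :=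
  Subgroup.closure (Set.range fun k : Fin 5 => (gel k, slGen k))

theorem pairs_compat {p : ON7.Grp × SpecialLinearGroup (Fin 3) (ZMod 7)} (hp : p ∈ pairs) :
    Compat p.1 (p.2 : Matrix (Fin 3) (Fin 3) (ZMod 7)) := by
  have hp' : p ∈ Submonoid.closure (Set.range fun k : Fin 5 => (gel k, slGen k)) := by
    rw [← Subgroup.closure_toSubmonoid_of_finite]
    exact hp
  induction hp' using Submonoid.closure_induction with
  | mem x hx => obtain ⟨k, rfl⟩ := hx; exact compat_gen k
  | one => exact compat_one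
  | mul a b ha hb iha ihb =>
    exact (iha (Subgroup.le_closure_toSubmonoid _ ha)).mul (ihb (Subgroup.le_closure_toSubmonoid _ hb))

theorem gel_mem (k : Fin 5) : gel k ∈ ON7H.sub := by
  have hv : ∀ g, g < 6 → ON7H.val g ∈ ON7H.sub := by
    intro g hg
    rw [ON7H.sub_eq]
    refine Subgroup.subset_closure ⟨229 + g, by
      simp only [List.mem_cons, List.not_mem_nil, or_false]; omega, ?_⟩
    have h : ∀ g : Fin 6, nthWord ON7H.data.words (229 + (g : Nat)) = [(g : Nat)] := by decide +kernel
    rw [show nthWord ON7H.data.words (229 + g) = [g] from h ⟨g, hg⟩]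
    simp [ev]
  simp only [gel, gw, ev, one_mul]
  exact mul_mem (hv 0 (by norm_num)) (hv _ (by omega))

/-- first projection into H -/
noncomputable def proj : pairs →* ON7H.sub :=
  ((MonoidHom.fst ON7.Grp (SpecialLinearGroup (Fin 3) (ZMod 7))).comp pairs.subtype).codRestrict _
    fun p => by
      have h : pairs.map (MonoidHom.fst ON7.Grp (SpecialLinearGroup (Fin 3) (ZMod 7))) ≤ ON7H.sub := by
        rw [pairs, MonoidHom.map_closure, Subgroup.closure_le]
        rintro _ ⟨_, ⟨k, rfl⟩, rfl⟩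
        exact gel_mem k
      exact h (Subgroup.mem_map_of_mem _ p.2)

/-- the subgroup of index two -/
noncomputable def nSub : Subgroup ON7H.sub := proj.range

theorem frame : (∀ j : Fin 3, ∃ b : Fin 57, vec b = Pi.single j 1) ∧
    ∃ b : Fin 57, vec b = fun _ => 1 := by decide +kernel

theorem ker_proj {p : pairs} (h : proj p = 1) :
    (p : ON7.Grp × SpecialLinearGroup (Fin 3) (ZMod 7)).2 ∈
      Subgroup.center (SpecialLinearGroup (Fin 3) (ZMod 7)) := by
  have h1 : (p : ON7.Grp × SpecialLinearGroup (Fin 3) (ZMod 7)).1 = 1 := congrArg Subtype.val h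
  have hc := pairs_compat p.2
  rw [h1] at hc
  set S := (p : ON7.Grp × SpecialLinearGroup (Fin 3) (ZMod 7)).2
  set A := (S : Matrix (Fin 3) (Fin 3) (ZMod 7)) with hA
  have hfix : ∀ b : Fin 57, ∃ s : ZMod 7, A *ᵥ vec b = s • vec b := by
    intro b
    obtain ⟨hi, hib⟩ := rep_ok b
    obtain ⟨b', s, -, e1, e2⟩ := hc b b.2
    have := e2 ⟨rep b, hi⟩ hib
    rw [map_one] at this
    have hb : b' = b := this.symm.trans hib
    exact ⟨s, hb ▸ e1⟩
  obtain ⟨hsingle, bo, hone⟩ := frame
  obtain ⟨c, hc1⟩ := hfix bo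
  rw [hone] at hc1
  have hdiag : ∀ i j : Fin 3, A i j = if i = j then c else 0 := by
    have hcol : ∀ j : Fin 3, ∃ d : ZMod 7, ∀ i, A i j = if i = j then d else 0 := by
      intro j
      obtain ⟨b, hb⟩ := hsingle j
      obtain ⟨d, hd⟩ := hfix b
      refine ⟨d, fun i => ?_⟩
      have h2 := congrFun hd i
      rw [hb, Matrix.mulVec_single_one, Matrix.col_apply, Pi.smul_apply, Pi.single_apply,
        smul_eq_mul] at h2
      rw [h2]; split <;> simp
    choose d hd using hcol
    intro i j
    have h3 := congrFun hc1 i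
    simp only [Matrix.mulVec, dotProduct, hd, mul_one, Finset.sum_ite_eq, Finset.mem_univ,
      if_true, Pi.smul_apply, smul_eq_mul] at h3
    rw [hd]
    split
    · rename_i hij; rw [← hij, h3]
    · rfl
  refine Matrix.SpecialLinearGroup.mem_center_iff.mpr ⟨c, ?_, ?_⟩
  · have hd := S.2
    rw [← hA, show A = Matrix.diagonal fun _ => c from by
      ext i j; rw [hdiag i j, Matrix.diagonal_apply], Matrix.det_diagonal] at hd
    simpa using hd
  · ext i j
    rw [← hA, hdiag i j, Matrix.scalar_apply, Matrix.diagonal_apply]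

/-- second projection -/
noncomputable def psi : pairs →* ProjectiveSpecialLinearGroup (Fin 3) (ZMod 7) :=
  (QuotientGroup.mk' _).comp
    ((MonoidHom.snd ON7.Grp (SpecialLinearGroup (Fin 3) (ZMod 7))).comp pairs.subtype)

/-- matrix of a word -/
def slWord (w : List Nat) : SpecialLinearGroup (Fin 3) (ZMod 7) :=
  w.foldl (fun m k => slGen ⟨k % 5, Nat.mod_lt _ (by norm_num)⟩ * m) 1

theorem slWord_mem (w : List Nat) :
    slWord w ∈ ((MonoidHom.snd ON7.Grp (SpecialLinearGroup (Fin 3) (ZMod 7))).comp pairs.subtype).range := by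
  unfold slWord
  induction w using List.reverseRecOn with
  | nil => exact one_mem _
  | append_singleton w k ih =>
    rw [List.foldl_append, List.foldl_cons, List.foldl_nil]
    exact mul_mem ⟨⟨_, Subgroup.subset_closure ⟨_, rfl⟩⟩, rfl⟩ ih

/-- word of a transvection -/
def transW (i j : Fin 3) : List Nat :=
  ((transList.find? fun w => w.1 == (i : Nat) && w.2.1 == (j : Nat)).map fun w => w.2.2).getD []

theorem trans_ok : ∀ q : Fin 3 × Fin 3, q.1 = q.2 ∨ ∃ s : ZMod 7, s * s * s = 1 ∧ ∀ r : Fin 3 × Fin 3,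
    (slWord (transW q.1 q.2) : Matrix (Fin 3) (Fin 3) (ZMod 7)) r.1 r.2 =
      s * ((if r.1 = r.2 then 1 else 0) + (if r.1 = q.1 ∧ r.2 = q.2 then 1 else 0)) := by decide +kernel

theorem psi_surjective : Function.Surjective psi := by
  have htop : Subgroup.comap (QuotientGroup.mk' _) psi.range =
      (⊤ : Subgroup (SpecialLinearGroup (Fin 3) (ZMod 7))) := by
    refine H1.SL_eq_top_of_transvection_mem _ fun i j hij c => ?_
    obtain ⟨s, hs, hw'⟩ := (trans_ok (i, j)).resolve_left hij
    have hw := fun a b => hw' (a, b)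
    have hs3 : s ^ 3 = 1 := by rw [pow_succ, pow_two, hs]
    have h1 : SpecialLinearGroup.transvection hij (1 : ZMod 7) ∈
        Subgroup.comap (QuotientGroup.mk' _) psi.range := by
      rw [Subgroup.mem_comap]
      obtain ⟨p, hp⟩ := slWord_mem (transW i j)
      refine ⟨p, ?_⟩
      show QuotientGroup.mk' _ _ = _
      rw [hp, QuotientGroup.mk'_eq_mk']
      have hs2 : ((Matrix.scalar (Fin 3) s) ^ 2).det = 1 := by
        rw [← map_pow, Matrix.scalar_apply, Matrix.det_diagonal, Fin.prod_univ_three, ← pow_add,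
          ← pow_add, show 2 + 2 + 2 = 3 * 2 from rfl, pow_mul, hs3, one_pow]
      refine ⟨⟨_, hs2⟩, Matrix.SpecialLinearGroup.mem_center_iff.mpr ⟨s ^ 2, ?_, map_pow _ _ _⟩, ?_⟩
      · rw [Fintype.card_fin, ← pow_mul, show 2 * 3 = 3 * 2 from rfl, pow_mul, hs3, one_pow]
      · apply Subtype.ext
        show (slWord (transW i j) : Matrix (Fin 3) (Fin 3) (ZMod 7)) * (Matrix.scalar (Fin 3) s) ^ 2 =
          Matrix.transvection i j 1
        ext a b
        rw [← map_pow, Matrix.scalar_apply, Matrix.mul_diagonal, hw, mul_comm s _, mul_assoc,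
          ← pow_succ', hs3, mul_one, Matrix.transvection, Matrix.add_apply, Matrix.one_apply,
          Matrix.single_apply]
        congr 1
        simp only [eq_comm (a := i), eq_comm (a := j)]
    have hn : ∀ m : ℕ, SpecialLinearGroup.transvection hij (m : ZMod 7) ∈
        Subgroup.comap (QuotientGroup.mk' _) psi.range := by
      intro m
      induction m with
      | zero =>
        convert one_mem (Subgroup.comap (QuotientGroup.mk' _) psi.range)
        apply Subtype.ext
        simp [SpecialLinearGroup.transvection]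
      | succ m ih =>
        convert mul_mem ih h1 using 1
        apply Subtype.ext
        show Matrix.transvection i j ((m + 1 : ℕ) : ZMod 7) =
          Matrix.transvection i j (m : ZMod 7) * Matrix.transvection i j 1
        rw [Matrix.transvection_mul_transvection_same i j hij]
        push_cast
        rfl
    have := hn c.val
    rwa [ZMod.natCast_zmod_val] at this
  intro y
  obtain ⟨A, rfl⟩ := QuotientGroup.mk'_surjective _ y
  have : A ∈ Subgroup.comap (QuotientGroup.mk' _) psi.range := by rw [htop]; exact Subgroup.mem_top A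
  exact this

theorem card_psl : Nat.card (ProjectiveSpecialLinearGroup (Fin 3) (ZMod 7)) = 1876896 := by
  have h1 := H1.gcd_mul_card_PSL (ι := Fin 3) (F := ZMod 7)
  have h2 := H1.sub_one_mul_card_SL (F := ZMod 7) (ZMod.card 7) 3 (by norm_num)
  have hu : Nat.card (ZMod 7)ˣ = 6 := by rw [Nat.card_units, Nat.card_zmod]
  rw [Fintype.card_fin, hu, show Nat.gcd 3 6 = 3 from rfl] at h1
  rw [← h1] at h2
  simp only [Fin.prod_univ_three, Fin.val_zero, Fin.val_one, Fin.val_two] at h2
  generalize Nat.card (ProjectiveSpecialLinearGroup (Fin 3) (ZMod 7)) = N at h2 ⊢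
  norm_num at h2
  omega

theorem not_top : nSub ≠ ⊤ := by
  intro h
  have ha : (⟨ON7H.val 0, by
      rw [ON7H.sub_eq]
      refine Subgroup.subset_closure ⟨229, by simp, ?_⟩
      rw [show nthWord ON7H.data.words 229 = [0] by decide +kernel]
      simp [ev]⟩ : ON7H.sub) ∈ nSub := by rw [h]; exact Subgroup.mem_top _
  obtain ⟨p, hp⟩ := ha
  have h1 : (p : ON7.Grp × SpecialLinearGroup (Fin 3) (ZMod 7)).1 = ev ON7H.val [0] := by
    rw [show ev ON7H.val [0] = ON7H.val 0 from one_mul _]
    exact congrArg Subtype.val hp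
  have hw : 103984 < ON7H.data.n ∧ 87497 < ON7H.data.n ∧ blk 103984 < 57 ∧ blk 87497 = blk 103984 ∧
      blk (ON7H.data.run [0] 103984) ≠ blk (ON7H.data.run [0] 87497) := by decide +kernel
  obtain ⟨w1, w2, w3, w4, w5⟩ := hw
  obtain ⟨b', s, -, -, e2⟩ := pairs_compat p.2 _ w3
  have hlt : ∀ g ∈ ([0] : List Nat), g < ON7H.data.ng := by
    intro g hg; rw [List.mem_singleton.mp hg]; decide +kernel
  have q1 := e2 ⟨_, w1⟩ rfl
  have q2 := e2 ⟨_, w2⟩ w4
  rw [h1, ON7H.theModel.rho_ev, ON7H.valid.perm_word _ hlt] at q1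
  rw [h1, ON7H.theModel.rho_ev, ON7H.valid.perm_word _ hlt] at q2
  exact w5 (q1.trans q2.symm)

/-- the map to PSL(3,7) -/
noncomputable def phi : nSub →* ProjectiveSpecialLinearGroup (Fin 3) (ZMod 7) :=
  proj.rangeRestrict.liftOfSurjective proj.rangeRestrict_surjective ⟨psi, by
    intro p hp
    rw [MonoidHom.ker_rangeRestrict, MonoidHom.mem_ker] at hp
    rw [MonoidHom.mem_ker]
    exact (QuotientGroup.eq_one_iff _).mpr (ker_proj hp)⟩

theorem phi_surjective : Function.Surjective phi := by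
  intro y
  obtain ⟨p, rfl⟩ := psi_surjective y
  exact ⟨proj.rangeRestrict p, MonoidHom.liftOfRightInverse_comp_apply _ _ _ _ p⟩

theorem main : nSub.Normal ∧ nSub.index = 2 ∧
    Nonempty (nSub ≃* ProjectiveSpecialLinearGroup (Fin 3) (ZMod 7)) := by
  have hle := Nat.card_le_card_of_surjective phi phi_surjective
  rw [card_psl] at hle
  have hmul := Subgroup.card_mul_index nSub
  rw [ON7Order.card_sub] at hmul
  have hne : nSub.index ≠ 1 := fun e => not_top (Subgroup.index_eq_one.mp e)
  have hne0 : nSub.index ≠ 0 := fun e => by rw [e] at hmul; simp at hmul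
  have hidx : nSub.index = 2 := by
    by_contra hne2
    have h3 : 3 ≤ nSub.index := by omega
    have := Nat.mul_le_mul hle h3
    omega
  rw [hidx] at hmul
  refine ⟨Subgroup.normal_of_index_eq_two hidx, hidx, ⟨MulEquiv.ofBijective phi
    ((Nat.bijective_iff_surjective_and_card _).mpr ⟨phi_surjective, by rw [card_psl]; omega⟩)⟩⟩

theorem main_on : ∃ N : Subgroup (((Subgroup.closure ({ON.a, ON.b, ON.c, ON.d, ON.e, ON.f} :
    Set (FreeGroup ON.Gen))).map (PresentedGroup.mk (coxRelators ON.edges ∪ {r | r ∈ ON.extra})))),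
    N.Normal ∧ N.index = 2 ∧ Nonempty (N ≃* ProjectiveSpecialLinearGroup (Fin 3) (ZMod 7)) := by
  obtain ⟨h1, h2, ⟨e⟩⟩ := main
  set H := ((Subgroup.closure ({ON.a, ON.b, ON.c, ON.d, ON.e, ON.f} :
    Set (FreeGroup ON.Gen))).map (PresentedGroup.mk (coxRelators ON.edges ∪ {r | r ∈ ON.extra})))
  let f : H ≃* ON7H.sub :=
    (ON7.equiv.subgroupMap H).trans (MulEquiv.subgroupCongr ON7Order.index_six)
  refine ⟨nSub.map f.symm.toMonoidHom, h1.map _ f.symm.surjective, ?_,
    ⟨(f.symm.subgroupMap nSub).symm.trans e⟩⟩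
  rw [← h2]
  exact Subgroup.index_map_equiv nSub f.symm

end Cfsg.Agent.H16.ON7N
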