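import Cfsg.Agent.H16.ONM
import Cfsg.Agent.H16.ONJ

/-! The O'Nan group as a permutation group of degree 122760. -/

set_option autoImplicit false

namespace Cfsg.Agent.H16.ON7Perm

open Cfsg.Spor EnumData CoxEnum

theorem exists_perm : ∃ H : Subgroup (Equiv.Perm (Fin 122760)), Cfsg.IsON H ∧
    MulAction.IsPretransitive H (Fin 122760) ∧
    Nat.card (MulAction.stabilizer H (0 : Fin 122760)) = 3753792 ∧
    (∃ K : Subgroup H, Cfsg.IsJ1 K) ∧ (∃ K : Subgroup H, Cfsg.IsM11 K) := by
  let M := ON7H.theModel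
  obtain ⟨hcard, hinj⟩ := ON7Order.card_and_faithful
  have hn : ON7H.data.n = 122760 := rfl
  let R : Subgroup (Equiv.Perm (Fin 122760)) := M.rho.range
  let e : ON7.Grp ≃* R := MonoidHom.ofInjective hinj
  have htr : ∀ i : Fin 122760, ∃ g : R, g • (0 : Fin 122760) = i := fun i => by
    obtain ⟨x, hx⟩ := M.reach i i.2
    exact ⟨e x, hx⟩
  have hR : Nat.card R = 460815505920 := (Nat.card_congr e.toEquiv).symm.trans hcard
  have hpre : MulAction.IsPretransitive R (Fin 122760) := ⟨fun i j => by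
    obtain ⟨g, rfl⟩ := htr i
    obtain ⟨h, rfl⟩ := htr j
    exact ⟨h * g⁻¹, by rw [mul_smul, inv_smul_smul]⟩⟩
  refine ⟨R, ⟨?_, hR⟩, hpre, ?_, ?_, ?_⟩
  · haveI := ON7Order.isSimple
    exact e.symm.isSimpleGroup
  · have h := Subgroup.index_mul_card (MulAction.stabilizer R (0 : Fin 122760))
    rw [MulAction.index_stabilizer_of_transitive, Nat.card_eq_fintype_card, Fintype.card_fin, hR] at h
    exact Nat.eq_of_mul_eq_mul_left (by norm_num : 0 < 122760) (h.trans (by norm_num))
  · obtain ⟨K, hs, hc⟩ := ONJ.exists_sub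
    let f := K.equivMapOfInjective e.toMonoidHom e.injective
    exact ⟨_, f.symm.isSimpleGroup, (Nat.card_congr f.toEquiv).symm.trans hc⟩
  · obtain ⟨K, hs, hc⟩ := ONM.exists_sub
    let f := K.equivMapOfInjective e.toMonoidHom e.injective
    exact ⟨_, f.symm.isSimpleGroup, (Nat.card_congr f.toEquiv).symm.trans hc⟩

end Cfsg.Agent.H16.ON7Perm
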