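import Cfsg.Agent.H16.ONJDData
import Cfsg.Agent.H16.ONJDFacts0

/-! Kernel checks of the certificate: ONJ, subgroup D. -/

set_option autoImplicit false

namespace Cfsg.Agent.H16.ONJD

open EnumData

/-- the certificate without tracing relators on the table -/
def weakData : EnumData := { data with nbase := 0 }

theorem weak_checkFact (i : Nat) : weakData.checkFact i = data.checkFact i := rfl

theorem rows_0 : allFrom (fun i => weakData.checkRow i) 11 0 = true := by decide +kernel

theorem base_check : weakData.checkBase = true := by decide +kernel

/-- The certificate is valid. -/
theorem valid : weakData.Valid where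
  facts_ok :=
    fun i hi => (weak_checkFact i).trans ((allFrom_extend allFrom_nil
    facts_0) i hi)
  rows_ok :=
    (allFrom_extend allFrom_nil
    rows_0)
  base_ok := base_check

end Cfsg.Agent.H16.ONJD
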