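import Cfsg.Agent.H16.ONJTData

/-! Kernel checks of facts 24000 to 29164: ONJ, subgroup T. -/

set_option autoImplicit false

namespace Cfsg.Agent.H16.ONJT

open EnumData

theorem facts_24000 : allFrom (fun i => data.checkFact i) 2000 24000 = true := by decide +kernel

theorem facts_26000 : allFrom (fun i => data.checkFact i) 2000 26000 = true := by decide +kernel

theorem facts_28000 : allFrom (fun i => data.checkFact i) 1164 28000 = true := by decide +kernel

end Cfsg.Agent.H16.ONJT
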