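import Cfsg.Agent.H16.ONJTData
import Cfsg.Agent.H16.ONJTFacts0
import Cfsg.Agent.H16.ONJTFacts1

/-! Kernel checks of the certificate: ONJ, subgroup T. -/

set_option autoImplicit false

namespace Cfsg.Agent.H16.ONJT

open EnumData

/-- the certificate without tracing relators on the table -/
def weakData : EnumData := { data with nbase := 0 }

theorem weak_checkFact (i : Nat) : weakData.checkFact i = data.checkFact i := rfl

theorem rows_0 : allFrom (fun i => weakData.checkRow i) 1000 0 = true := by decide +kernel

theorem rows_1 : allFrom (fun i => weakData.checkRow i) 1000 1000 = true := by decide +kernel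

theorem rows_2 : allFrom (fun i => weakData.checkRow i) 1000 2000 = true := by decide +kernel

theorem rows_3 : allFrom (fun i => weakData.checkRow i) 1000 3000 = true := by decide +kernel

theorem rows_4 : allFrom (fun i => weakData.checkRow i) 1000 4000 = true := by decide +kernel

theorem rows_5 : allFrom (fun i => weakData.checkRow i) 1000 5000 = true := by decide +kernel

theorem rows_6 : allFrom (fun i => weakData.checkRow i) 1000 6000 = true := by decide +kernel

theorem rows_7 : allFrom (fun i => weakData.checkRow i) 980 7000 = true := by decide +kernel

theorem base_check : weakData.checkBase = true := by decide +kernel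

/-- The certificate is valid. -/
theorem valid : weakData.Valid where
  facts_ok :=
    fun i hi => (weak_checkFact i).trans ((allFrom_extend (allFrom_extend (allFrom_extend (allFrom_extend (allFrom_extend (allFrom_extend (allFrom_extend (allFrom_extend (allFrom_extend (allFrom_extend (allFrom_extend (allFrom_extend (allFrom_extend (allFrom_extend (allFrom_extend allFrom_nil
    facts_0)
    facts_2000)
    facts_4000)
    facts_6000)
    facts_8000)
    facts_10000)
    facts_12000)
    facts_14000)
    facts_16000)
    facts_18000)
    facts_20000)
    facts_22000)
    facts_24000)
    facts_26000)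
    facts_28000) i hi)
  rows_ok :=
    (allFrom_extend (allFrom_extend (allFrom_extend (allFrom_extend (allFrom_extend (allFrom_extend (allFrom_extend (allFrom_extend allFrom_nil
    rows_0)
    rows_1)
    rows_2)
    rows_3)
    rows_4)
    rows_5)
    rows_6)
    rows_7)
  base_ok := base_check

end Cfsg.Agent.H16.ONJT
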