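import Cfsg.Agent.H16.ONMHData
import Cfsg.Agent.H16.CosetBound

/-! Base certificate: ONMH. -/

set_option autoImplicit false
set_option maxRecDepth 20000

namespace Cfsg.Agent.H16.ONMH

open EnumData

local notation "L" => PArr.leaf
local notation "N" => PArr.node

/-- base certificate -/
def basePts0 : PArr :=
(L 0xa0002400080001c00060001400040000c0002000040000)

/-- base certificate -/
def baseEnt0 : PArr :=
(L 0x80020001c0080006001000140000004002000080080001001000040040000000000000000000)

/-- base certificate -/
def basePos0 : PArr :=
(L 0xa0002400080001c00060001400040000c0002000040000)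

/-- base certificate -/
def baseLevel0 : BaseLevel :=
  ⟨0, 11, [[0],
    [1],
    [2]], basePts0, baseEnt0, basePos0⟩

/-- base certificate -/
def basePts1 : PArr :=
(L 0x14000a0002000090000800060000c0007000100001)

/-- base certificate -/
def baseEnt1 : PArr :=
(L 0x20001000c0003002000080000002003000040040001002000000040000000000000000000)

/-- base certificate -/
def basePos1 : PArr :=
(L 0x80001800070000800040002400010000c0005000000000)

/-- base certificate -/
def baseLevel1 : BaseLevel :=
  ⟨1, 10, [[2],
    [1,0,1],
    [0,2,1,2,0],
    [0,1,0,2,0,1]], basePts1, baseEnt1, basePos1⟩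

/-- base certificate -/
def basePts2 : PArr :=
(L 0xa0001c0003000100005000240008000180002)

/-- base certificate -/
def baseEnt2 : PArr :=
(L 0x60010001000000040000000c0000002000000040040000000000000000000)

/-- base certificate -/
def basePos2 : PArr :=
(L 0x80000c00020001c0001000100005000180000000000000)

/-- base certificate -/
def baseLevel2 : BaseLevel :=
  ⟨2, 9, [[0,1,0,2,0,1],
    [2,0,2,1,2,0,2]], basePts2, baseEnt2, basePos2⟩

/-- base certificate -/
def basePts3 : PArr :=
(L 0x24000500020000a000180007000100003)

/-- base certificate -/
def baseEnt3 : PArr :=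
(L 0x10000c0000003000000080040001000000040040000000000000000000)

/-- base certificate -/
def basePos3 : PArr :=
(L 0x40001c0005000080003000180001000000000000000000)

/-- base certificate -/
def baseLevel3 : BaseLevel :=
  ⟨3, 8, [[0,2,1,2,1,0,1,0,1,2,1,2],
    [1,0,1,2,0,1,2,0,2,0,1,2]], basePts3, baseEnt3, basePos3⟩

/-- the base -/
def base : List BaseLevel := [baseLevel0,baseLevel1,baseLevel2,baseLevel3]

theorem base_ok : data.checkLevels base [] = true := by decide +kernel

theorem base_prod : levelsProd base = 7920 := by decide +kernel

end Cfsg.Agent.H16.ONMH
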