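import Cfsg.Agent.H16.ONMHData

/-! Kernel checks of facts 0 to 55: ONM, subgroup H. -/

set_option autoImplicit false

namespace Cfsg.Agent.H16.ONMH

open EnumData

theorem facts_0 : allFrom (fun i => data.checkFact i) 55 0 = true := by decide +kernel

end Cfsg.Agent.H16.ONMH
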