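import Cfsg.Agent.H16.ONMHData
import Cfsg.Agent.H16.ONMHFacts0

/-! Kernel checks of the certificate: ONM, subgroup H. -/

set_option autoImplicit false

namespace Cfsg.Agent.H16.ONMH

open EnumData

theorem rows_0 : allFrom (fun i => data.checkRow i) 11 0 = true := by decide +kernel

theorem base_check : data.checkBase = true := by decide +kernel

/-- The certificate is valid. -/
theorem valid : data.Valid where
  facts_ok :=
    (allFrom_extend allFrom_nil
    facts_0)
  rows_ok :=
    (allFrom_extend allFrom_nil
    rows_0)
  base_ok := base_check

end Cfsg.Agent.H16.ONMH
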