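import Cfsg.Agent.H16.ONMHCheck

/-! Orbits of the subgroup on the cosets: ONM, subgroup H. -/

set_option autoImplicit false

namespace Cfsg.Agent.H16.ONMH

open EnumData

local notation "L" => PArr.leaf
local notation "N" => PArr.node

/-- orbit labels -/
def labArr : PArr :=
(L 0x300000c000201002f0001c000301002f0001800040100300001000020100300001c000301003000018000401002f00004000101003000004000101002f00014000501000000000000001000000000000000)

/-- orbit representatives -/
def orbitReps : List Nat := [0, 1]

/-- subgroup words -/
def subWords : List Nat := [47, 48]

theorem orbit_0 : allFrom (fun i => data.checkOrbit labArr orbitReps subWords i) 11 0 = true := by decide +kernel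

theorem orbits_ok : ∀ i, i < data.n → data.checkOrbit labArr orbitReps subWords i = true :=
  (allFrom_extend allFrom_nil orbit_0)

theorem count_0 : countFrom (fun i => Nat.beq (bitField (labArr.get 60 i) 0 8) 0) data.n 0 = 1 := by decide +kernel

theorem rep_lt_0 : orbitReps.getD 0 data.n < data.n := by decide +kernel

theorem rep_lab_0 : bitField (labArr.get 60 (orbitReps.getD 0 data.n)) 0 8 = 0 := by decide +kernel

theorem count_1 : countFrom (fun i => Nat.beq (bitField (labArr.get 60 i) 0 8) 1) data.n 0 = 10 := by decide +kernel

theorem rep_lt_1 : orbitReps.getD 1 data.n < data.n := by decide +kernel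

theorem rep_lab_1 : bitField (labArr.get 60 (orbitReps.getD 1 data.n)) 0 8 = 1 := by decide +kernel

end Cfsg.Agent.H16.ONMH
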