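import Cfsg.Prelude.Def_Sporadic
import Cfsg.Agent.H16.ON7SubLib
import Cfsg.Agent.H16.CosetBlocks
import Cfsg.Agent.H16.ON7Order
import Cfsg.Agent.H16.ONMHCheck
import Cfsg.Agent.H16.ONMHOrbits
import Cfsg.Agent.H16.ONMHBase
import Cfsg.Agent.H16.ONMTCheck
import Cfsg.Agent.H16.ONMDCheck
import Cfsg.Agent.H16.ONMICheck
import Cfsg.Agent.H16.ONMWCheck

/-! A subgroup of the O'Nan group of order 7920, simple, generated by three involutions. -/

set_option autoImplicit false
set_option maxRecDepth 8000

namespace Cfsg.Agent.H16.ONM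

open Cfsg.Spor EnumData CoxEnum

/-- the graph -/
def edges : List (Fin 3 × ℕ × Fin 3) := [(0, 6, 1), (0, 6, 2), (1, 6, 2)]

/-- further relator words -/
def extraWords : List (List Nat) := [[0,1,0,1,0,1,0,1,0,1,0,1], [0,2,0,2,1,2,0,2,0,2,1,2,0,2,0,2,1,2], [1,0,1,2,0,2,1,0,1,0,2,0], [0,1,2,1,2,0,2,0,1,2,1,2,0,2,0,1,2,1,2,0,2]]

/-- further relators -/
def extra : List (FreeGroup (Fin 3)) := extraWords.map (ev gv)

/-- the presented group -/
abbrev Grp : Type := CoxPresented (Fin 3) edges extra

theorem mem_gens (x : Fin 3) : x ∈ gens3 ∧ x ∈ coxNodes edges := by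
  fin_cases x <;> decide

theorem presCheck : PresCheck ONMH.data gens3 edges extra extraWords where
  ng_eq := rfl
  mem_nodes := mem_gens
  rels_ok := fun k hk => by
    have h : allFrom (fun k => relOK (ONMH.data.words.take ONMH.data.nbase) (nthWord ONMH.data.words k))
        ONMH.data.nrel 0 = true := by decide +kernel
    exact allFrom_spec h k (Nat.zero_le k) (by omega)
  pairs_ok := by decide +kernel
  extra_ok := extra_ok3 _ _ (by decide +kernel)
  base_ok := by
    have h : (ONMH.data.words.take ONMH.data.nbase).all (fun w => w.isEmpty ||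
        (List.range ONMH.data.ng).any (fun g => w == [g, g]) ||
        (coxNodes edges).any (fun x => (coxNodes edges).any fun y =>
          w == pairWord gens3 edges x y || w == (pairWord gens3 edges x y).reverse) ||
        extraWords.contains w) = true := by decide +kernel
    intro w hw
    have h := List.all_eq_true.mp h w hw
    simp only [Bool.or_eq_true, List.any_eq_true, beq_iff_eq, List.isEmpty_iff,
      List.contains_iff_mem, List.mem_range] at h
    rcases h with ((h | h) | h) | h
    · exact Or.inl h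
    · exact Or.inr (Or.inl h)
    · exact Or.inr (Or.inr (Or.inl h))
    · exact Or.inr (Or.inr (Or.inr h))

/-- generator values -/
noncomputable abbrev val : Nat → Grp :=
  numGen gens3 (PresentedGroup.of (rels := coxRelators edges ∪ {r | r ∈ extra}))

/-- the subgroup of index 11 -/
abbrev sub : Subgroup Grp :=
  Subgroup.closure {x | ∃ k ∈ ([47,48] : List Nat), ev val (nthWord ONMH.data.words k) = x}

/-- the model -/
noncomputable def theModel : ONMH.data.Model val ONMH.valid sub :=
  model ONMH.valid presCheck (by decide) sub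
    (fun k hk hl => by
      refine Subgroup.subset_closure ⟨k, ?_, rfl⟩
      have h1 : 47 ≤ k := hk
      have h2 : k < 49 := by
        have e : ONMH.data.words.length = 49 := by decide +kernel
        exact e ▸ hl
      interval_cases k <;> simp)
    (by
      refine Subgroup.closure_mono ?_
      rintro x ⟨k, -, rfl⟩
      exact ⟨k, rfl⟩)

/-- relator words -/
abbrev baseWords : List (List Nat) := ONMH.data.words.take ONMH.data.nbase

theorem wordGroup : WordGroup Grp val baseWords := CoxEnum.wordGroup presCheck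

theorem stepT : checkStep ONMT.weakData baseWords [0,1,2] [0,1] = true := by decide +kernel
theorem stepD : checkStep ONMD.weakData baseWords [0,1] [0] = true := by decide +kernel
theorem stepI : checkStep ONMI.weakData baseWords [0] [] = true := by decide +kernel

theorem tower_prod : ONMT.weakData.n * (ONMD.weakData.n * (ONMI.weakData.n * 1)) = 7920 := by
  decide +kernel

theorem finite_card_le : Finite Grp ∧ Nat.card Grp ≤ 7920 := by
  have ht := tower_step wordGroup ONMT.valid stepT (tower_step wordGroup ONMD.valid stepD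
    (tower_step wordGroup ONMI.valid stepI (letterSub_nil _)))
  have htop : letterSub val [0,1,2] = ⊤ := letterSub_all presCheck
  rw [htop, Subgroup.card_top, tower_prod] at ht
  exact ⟨haveI := ht.1; Finite.of_equiv _ Subgroup.topEquiv.toEquiv, ht.2⟩

instance : Finite Grp := finite_card_le.1

theorem card_and_faithful : Nat.card Grp = 7920 ∧ Function.Injective theModel.rho :=
  theModel.card_eq_of_le ONMH.base_ok ONMH.base_prod finite_card_le.2

/-- a word of order 11 -/
abbrev wp : List Nat := [2,0,1]

theorem wp_fix : allFrom (fun i => Nat.beq (ONMH.data.run (List.replicate 11 wp).flatten i) i)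
    ONMH.data.n 0 = true := by decide +kernel

theorem wp_lt : ∀ g ∈ wp, g < ONMH.data.ng := by decide +kernel

theorem stepW : checkStep ONMW.weakData (baseWords ++ [wp]) [0,1,2] [] = true := by decide +kernel

theorem w_n : ONMW.weakData.n = 1 := by decide +kernel

theorem no_index_two (K : Subgroup Grp) : K.index ≠ 2 := by
  intro h
  have hN : K.Normal := Subgroup.normal_of_index_eq_two h
  have hw : (ev val wp) ^ 11 = 1 := theModel.pow_eq_one card_and_faithful.2 wp wp_lt 11 wp_fix
  have hmem : ev val wp ∈ K := by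
    have h1 : ((ev val wp : Grp) : Grp ⧸ K) ^ 11 = 1 := by rw [← QuotientGroup.mk_pow, hw]; rfl
    have h2 : ((ev val wp : Grp) : Grp ⧸ K) ^ 2 = 1 := by
      rw [← h]; exact pow_card_eq_one'
    have h3 : ((ev val wp : Grp) : Grp ⧸ K) ^ Nat.gcd 2 11 = 1 := pow_gcd_eq_one.mpr ⟨h2, h1⟩
    norm_num at h3
    exact h3
  have ht := normal_eq_top wordGroup ONMW.valid (letterSub_all presCheck) stepW w_n K hN hmem
  rw [ht, Subgroup.index_top] at h
  omega

theorem isSimple : IsSimpleGroup Grp := by
  obtain ⟨hcard, hinj⟩ := card_and_faithful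
  have hnt : Nontrivial Grp := Finite.one_lt_card_iff_nontrivial.mp (by rw [hcard]; norm_num)
  have hH : Nat.card sub = 720 := by
    have h := Subgroup.index_mul_card sub
    rw [theModel.index_eq, hcard, show ONMH.data.n = 11 from rfl] at h
    omega
  refine isSimpleGroup_of_maximal sub
    (fun K hK => theModel.eq_or_eq_top_of_two (sizes := [1,10]) (subs := ONMH.subWords) le_rfl
      ONMH.orbits_ok ?_ ?_ ?_ ?_ ?_ rfl ?_ no_index_two K hK)
    (fun N hN hle => theModel.core_eq_bot hinj N hN hle)
    (p := 11) (k := 1) (by norm_num) (by rw [hH]; decide)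
    (ev val wp) ?_ ?_
  · intro i hi
    have h : allFrom (fun i => Nat.ble (bitField (ONMH.labArr.get 60 i) 0 8).succ 2)
        ONMH.data.n 0 = true := by decide +kernel
    exact Nat.le_of_ble_eq_true (allFrom_spec h i (Nat.zero_le _) (by omega))
  · intro l hl
    change l < 2 at hl
    interval_cases l
    exacts [ONMH.rep_lt_0, ONMH.rep_lt_1]
  · intro l hl
    change l < 2 at hl
    interval_cases l
    exacts [ONMH.rep_lab_0, ONMH.rep_lab_1]
  · intro l hl
    change l < 2 at hl
    interval_cases l
    exacts [ONMH.count_0, ONMH.count_1]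
  · decide +kernel
  · have hn : ONMH.data.n = 11 := rfl
    rw [hn]
    decide
  · rw [pow_one]; exact theModel.pow_eq_one hinj wp wp_lt 11 wp_fix
  · intro N hN hw
    exact normal_eq_top wordGroup ONMW.valid (letterSub_all presCheck) stepW w_n N hN hw

/-- the words of the three involutions in the O'Nan group -/
def img (g : Nat) : List Nat :=
  [[5], [1,1,4,2,3,2,0,5,1,3,4,4,4,5,0,1,6,2,1,4,2,6,5,2,0,0,0,5,6,1,1,1,4,1,2,6,1,0,5,4,4,4,3,1,5,0,2,3,2,4,1,1,5,1,1,4,2,3,2,0,5,1,3,4,4,4,5,0,1,6,2,1,4,1,1,1,6,5,0,0,0,2,5,6,2,4,1,2,6,1,0,5,4,4,4,3,1,5,0,2,3,2,4,1,1], [1,1,4,2,3,2,0,5,1,3,4,4,4,5,0,1,6,2,1,4,1,1,1,6,5,0,0,0,2,5,6,2,4,1,2,6,1,0,5,4,4,4,3,1,5,0,2,3,2,4,1,1,1,1,4,2,3,2,0,5,1,3,4,4,4,5,0,1,6,2,1,4,1,1,1,6,5,0,0,0,2,5,6,2,4,1,2,6,1,0,5,4,4,4,3,1,5,0,2,3,2,4,1,1]].getD g []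

theorem img_rel : (baseWords.all fun w => w.all (fun g => Nat.ble (Nat.succ g) 3) &&
    ((w.flatMap img).all (fun g => Nat.ble (Nat.succ g) ON7H.data.ng) &&
      (allFixed ON7H.base []).all fun i => Nat.beq (ON7H.data.run (w.flatMap img) i) i)) = true := by
  decide +kernel

theorem img_sq : ((List.range 3).all fun g =>
    ((img g ++ img g).all (fun g => Nat.ble (Nat.succ g) ON7H.data.ng) &&
      (allFixed ON7H.base []).all fun i => Nat.beq (ON7H.data.run (img g ++ img g) i) i)) = true := by
  decide +kernel

theorem img_nontriv : ON7H.data.run (img 0) 5 ≠ 5 := by decide +kernel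

theorem img_lt : ∀ g ∈ img 0, g < ON7H.data.ng := by decide +kernel

theorem ev_one {w : List Nat} (h : (w.all (fun g => Nat.ble (Nat.succ g) ON7H.data.ng) &&
    (allFixed ON7H.base []).all fun i => Nat.beq (ON7H.data.run w i) i) = true) :
    ev ON7H.val w = 1 := by
  rw [Bool.and_eq_true] at h
  have := ON7H.theModel.pow_eq_one_of_base ON7Order.card_and_faithful.2 ON7H.base_ok ON7H.base_prod
    ON7Order.card_and_faithful.1 w (fun g hg => Nat.le_of_ble_eq_true (List.all_eq_true.mp h.1 g hg))
    1 (by simpa using h.2)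
  simpa using this

/-- the three involutions -/
noncomputable def imgVal (x : Fin 3) : ON7.Grp := ev ON7H.val (img x)

theorem numGen_imgVal (g : Nat) (hg : g < 3) : numGen gens3 imgVal g = ev ON7H.val (img g) := by
  interval_cases g <;> rfl

theorem imgVal_sq (x : Fin 3) : imgVal x * imgVal x = 1 := by
  rw [imgVal, ← ev_append]
  exact ev_one (List.all_eq_true.mp img_sq x (List.mem_range.mpr x.2))

theorem img_lift : ∀ r ∈ coxRelators edges ∪ {r | r ∈ extra}, FreeGroup.lift imgVal r = 1 :=
  lift_one_of_presCheck presCheck imgVal imgVal_sq fun w hw => by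
    have h := List.all_eq_true.mp img_rel w hw
    rw [Bool.and_eq_true] at h
    have e : ev (numGen gens3 imgVal) w = ev (fun g => ev ON7H.val (img g)) w := by
      have hlt : ∀ g ∈ w, g < 3 := fun g hg => Nat.le_of_ble_eq_true (List.all_eq_true.mp h.1 g hg)
      clear h hw
      induction w with
      | nil => rfl
      | cons g w ih =>
        rw [ev, ev, numGen_imgVal g (hlt g (List.mem_cons_self ..)),
          ih fun x hx => hlt x (List.mem_cons_of_mem _ hx)]
    rw [e, ev_flatMap]
    exact ev_one h.2

/-- the map into the O'Nan group -/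
noncomputable def toON : Grp →* ON7.Grp := PresentedGroup.toGroup img_lift

theorem toON_injective : Function.Injective toON := by
  haveI := isSimple
  rw [← MonoidHom.ker_eq_bot_iff]
  refine (toON.normal_ker.eq_bot_or_eq_top).resolve_right fun h => ?_
  have h0 : toON (PresentedGroup.of 0) = 1 := (h ▸ Subgroup.mem_top _ : PresentedGroup.of 0 ∈ toON.ker)
  rw [toON, PresentedGroup.toGroup.of, imgVal] at h0
  apply img_nontriv
  have h1 := congrArg ON7H.theModel.rho h0
  rw [map_one, ON7H.theModel.rho_ev] at h1
  have h2 := congrArg (fun σ => ((σ (⟨5, by decide⟩ : Fin ON7H.data.n) : Fin ON7H.data.n) : Nat)) h1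
  simp only [Equiv.Perm.one_apply, ON7H.valid.perm_word _ img_lt] at h2
  exact h2

theorem exists_sub : ∃ K : Subgroup ON7.Grp, Cfsg.IsM11 K := by
  have e := MonoidHom.ofInjective toON_injective
  haveI := isSimple
  exact ⟨toON.range, e.symm.isSimpleGroup,
    (Nat.card_congr e.toEquiv).symm.trans card_and_faithful.1⟩

end Cfsg.Agent.H16.ONM
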