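import Cfsg.Agent.H16.CosetEnum

/-! Enumeration certificate data: ONM, subgroup I. -/

set_option autoImplicit false
set_option maxRecDepth 20000

namespace Cfsg.Agent.H16.ONMI

local notation "L" => PArr.leaf
local notation "N" => PArr.node

/-- certificate data -/
def wordList : List (List Nat) :=
[[],
[0,0],
[0,0]]

/-- certificate data -/
def factArr : PArr :=
(L 0x3fe0000800000)

/-- certificate data -/
def refArr : PArr :=
(L 0x0)

/-- certificate data -/
def defArr : PArr :=
(L 0x0)

/-- certificate data -/
def repArr : PArr :=
(L 0x40000)

/-- certificate data -/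
def tableArr : PArr :=
(L 0x1)

/-- certificate data -/
def treeArr : PArr :=
(L 0x0)

/-- certificate data -/
def wordTree : WTree :=
(WTree.node (WTree.node (WTree.leaf [])
(WTree.leaf [0,0]))
(WTree.node (WTree.leaf [0,0])
(WTree.leaf [])))

/-- certificate data -/
def data : EnumData :=
⟨1, 2, 1, wordList, 3, 3, wordTree, 3, factArr, refArr, defArr, repArr, tableArr, treeArr⟩

end Cfsg.Agent.H16.ONMI
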