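import Mathlib
import Cfsg.Agent.H16.CharTwo

/-!
Subnormal subgroups and normal 2-subgroups; fixed points of 2-groups; `Ω₁(Z(O₂(H)))`.
-/

set_option autoImplicit false

namespace Cfsg.Agent.H16

open Cfsg
open scoped Pointwise

variable {G : Type*} [Group G]

/-- A nontrivial normal subgroup of a finite nilpotent group meets the centre. -/
theorem exists_ne_one_mem_center [Group.IsNilpotent G] {N : Subgroup G} (hn : N.Normal)
    (h : N ≠ ⊥) : ∃ w ∈ N, w ≠ 1 ∧ w ∈ Subgroup.center G := by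
  classical
  obtain ⟨c, hc⟩ := (Group.isNilpotent_iff _).mp ‹Group.IsNilpotent G›
  obtain ⟨x, hx, hx1⟩ := (Subgroup.bot_or_exists_ne_one N).resolve_left h
  have hex : ∃ i, ∃ w ∈ N, w ≠ 1 ∧ w ∈ Subgroup.upperCentralSeries G i :=
    ⟨c, x, hx, hx1, by rw [hc]; exact Subgroup.mem_top x⟩
  obtain ⟨w, hw, hw1, hwi⟩ := Nat.find_spec hex
  rcases hk : Nat.find hex with _ | i
  · rw [hk, Subgroup.upperCentralSeries_zero] at hwi; exact absurd (Subgroup.mem_bot.mp hwi) hw1
  rw [hk] at hwi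
  refine ⟨w, hw, hw1, Subgroup.mem_center_iff.mpr fun g => ?_⟩
  have hmem := (Subgroup.mem_upperCentralSeries_succ_iff.mp hwi) g
  have hN : w * g * w⁻¹ * g⁻¹ ∈ N := by
    have := N.mul_mem hw (hn.conj_mem _ (N.inv_mem hw) g)
    convert this using 1; group
  have h1 : w * g * w⁻¹ * g⁻¹ = 1 := by
    by_contra hne
    exact Nat.find_min hex (show i < Nat.find hex by omega) ⟨_, hN, hne, hmem⟩
  calc g * w = (w * g * w⁻¹ * g⁻¹) * g * w := by rw [h1]; group
    _ = w * g := by group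

/-- `O_2` of a subnormal subgroup lies in `O_2`. -/
theorem coreTwo_le_of_subnormal [Finite G] {H K : Subgroup G} (hKH : K ≤ H)
    (hs : (K.subgroupOf H).IsSubnormal) : pCoreTwoOf K ≤ pCoreTwoOf H := by
  suffices ∀ A : Subgroup H, A.IsSubnormal → pCoreTwoOf (A.map H.subtype) ≤ pCoreTwoOf H by
    simpa [Subgroup.map_subgroupOf_eq_of_le hKH] using this _ hs
  intro A hA
  induction hA with
  | top => rw [← MonoidHom.range_eq_map, Subgroup.range_subtype]
  | step A B hle _ hN ih =>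
    refine le_trans (le_coreTwo ((coreTwo_le _).trans (Subgroup.map_mono hle)) ?_
      (isPGroup_coreTwo _)) ih
    set A' := A.map H.subtype
    intro b hb
    have hbn : b ∈ Subgroup.normalizer (A' : Set G) := by
      obtain ⟨b', hb', rfl⟩ := hb
      exact Subgroup.le_normalizer_map H.subtype
        ⟨b', (Subgroup.normal_subgroupOf_iff_le_normalizer hle).mp hN hb', rfl⟩
    have key : ∀ g ∈ Subgroup.normalizer (A' : Set G), ∀ y ∈ pCoreTwoOf A',
        g * y * g⁻¹ ∈ pCoreTwoOf A' := by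
      intro g hg y hy
      have hle' : (pCoreTwoOf A').map (MulAut.conj g).toMonoidHom ≤ pCoreTwoOf A' := by
        refine le_coreTwo ?_ ?_ ((isPGroup_coreTwo A').map _)
        · rintro _ ⟨v, hv, rfl⟩
          exact (Subgroup.mem_normalizer_iff.mp hg v).mp (coreTwo_le A' hv)
        · intro u hu
          have hu' : g⁻¹ * u * g ∈ A' := by
            rw [Subgroup.mem_normalizer_iff.mp hg]; simpa [mul_assoc] using hu
          simpa [mul_assoc] using Subgroup.le_normalizer_map (MulAut.conj g).toMonoidHom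
            ⟨_, le_normalizer_coreTwo A' hu', rfl⟩
      exact hle' ⟨y, hy, rfl⟩
    rw [Subgroup.mem_normalizer_iff]
    refine fun y => ⟨key b hbn y, fun hy => ?_⟩
    simpa [mul_assoc] using key b⁻¹ ((Subgroup.normalizer _).inv_mem hbn) _ hy

/-- If `L` is subnormal in `H` and `R` is a normal 2-subgroup of `H`, all elements of odd order
of `L ⊔ R` lie in `L`. -/
theorem mem_of_odd_of_mem_sup [Finite G] {H L R : Subgroup G} (hLH : L ≤ H) (hRH : R ≤ H)
    (hR : H ≤ Subgroup.normalizer (R : Set G)) (hR2 : IsPGroup 2 R)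
    (hs : (L.subgroupOf H).IsSubnormal) {x : G} (hx : x ∈ L ⊔ R) (ho : Odd (orderOf x)) :
    x ∈ L := by
  set W := L ⊔ R with hW
  have hWH : W ≤ H := sup_le hLH hRH
  have hsW : (L.subgroupOf W).IsSubnormal := by
    have := hs.comap (Subgroup.inclusion hWH)
    convert this using 1
    ext; simp [Subgroup.mem_subgroupOf]
  suffices ∀ A : Subgroup W, A.IsSubnormal → L.subgroupOf W ≤ A → (⟨x, hx⟩ : W) ∈ A by
    simpa [Subgroup.mem_subgroupOf] using this _ hsW le_rfl
  intro A hA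
  induction hA with
  | top => intro _; trivial
  | step A B hle _ hN ih =>
    intro hLA
    have hxB := ih (hLA.trans hle)
    have hconj : ∀ b ∈ B, ∀ a ∈ A, b * a * b⁻¹ ∈ A := fun b hb a ha =>
      (Subgroup.mem_normalizer_iff.mp ((Subgroup.normal_subgroupOf_iff_le_normalizer hle).mp hN hb) a).mp ha
    have hx' : (x : G) ∈ (L : Set G) * (R : Set G) := by
      rw [← Subgroup.coe_mul_of_left_le_normalizer_right L R (hLH.trans hR)]; exact hx
    obtain ⟨l, hl, r, hr, hlr⟩ := hx'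
    have hlA : (⟨l, le_sup_left (b := R) hl⟩ : W) ∈ A :=
      hLA (by simpa [Subgroup.mem_subgroupOf] using hl)
    set r' : W := ⟨r, le_sup_right (a := L) hr⟩ with hr'
    have hxr : (⟨x, hx⟩ : W) = ⟨l, le_sup_left (b := R) hl⟩ * r' := Subtype.ext hlr.symm
    have hrB : r' ∈ B := by
      have := B.mul_mem (B.inv_mem (hle hlA)) hxB
      rwa [hxr, inv_mul_cancel_left] at this
    obtain ⟨k, hk⟩ := hR2 ⟨r, hr⟩
    have hrk : r' ^ 2 ^ k = 1 := Subtype.ext (by simpa using congrArg Subtype.val hk)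
    have hpow : ∀ n : ℕ, ∃ a ∈ A, (⟨x, hx⟩ : W) ^ n = a * r' ^ n := by
      intro n
      induction n with
      | zero => exact ⟨1, A.one_mem, by simp⟩
      | succ n ihn =>
        obtain ⟨a, ha, he⟩ := ihn
        refine ⟨a * (r' ^ n * ⟨l, le_sup_left (b := R) hl⟩ * (r' ^ n)⁻¹),
          A.mul_mem ha (hconj _ (B.pow_mem hrB n) _ hlA), ?_⟩
        rw [pow_succ, he, hxr, pow_succ]; group
    obtain ⟨a, ha, he⟩ := hpow (2 ^ k)
    rw [hrk, mul_one] at he
    have hord : orderOf (⟨x, hx⟩ : W) = orderOf x := (orderOf_injective W.subtype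
      W.subtype_injective _).symm
    have hco : Nat.Coprime (orderOf (⟨x, hx⟩ : W)) (2 ^ k) := by
      rw [hord]; exact (Nat.coprime_two_right.mpr ho).pow_right k
    obtain ⟨m, hm⟩ := exists_pow_eq_self_of_coprime hco.symm
    rw [← hm, he]
    exact A.pow_mem ha m

/-- A perfect subnormal subgroup is normalized by every normal 2-subgroup. -/
theorem le_normalizer_of_perfect_subnormal [Finite G] {H L R : Subgroup G} (hLH : L ≤ H)
    (hRH : R ≤ H) (hR : H ≤ Subgroup.normalizer (R : Set G)) (hR2 : IsPGroup 2 R)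
    (hs : (L.subgroupOf H).IsSubnormal) (hL : ⁅L, L⁆ = L) :
    R ≤ Subgroup.normalizer (L : Set G) := by
  have key : ∀ r ∈ R, ∀ y ∈ L, r * y * r⁻¹ ∈ L := by
    intro r hr y hy
    have hle : L ≤ L.comap (MulAut.conj r).toMonoidHom := by
      conv_lhs => rw [← perfect_le_closure_odd hL]
      rw [Subgroup.closure_le]
      rintro z ⟨hz, ho⟩
      refine mem_of_odd_of_mem_sup hLH hRH hR hR2 hs ?_ ?_
      · exact (L ⊔ R).mul_mem ((L ⊔ R).mul_mem (le_sup_right (a := L) hr) (le_sup_left (b := R) hz))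
          ((L ⊔ R).inv_mem (le_sup_right (a := L) hr))
      · rwa [show (MulAut.conj r).toMonoidHom z = MulAut.conj r z from rfl, MulEquiv.orderOf_eq]
    exact hle hy
  intro r hr
  rw [Subgroup.mem_normalizer_iff]
  refine fun y => ⟨key r hr y, fun hy => ?_⟩
  simpa [mul_assoc] using key r⁻¹ (R.inv_mem hr) _ hy

/-- The elements of `Ω₁(Z(A))` are the central elements with square one. -/
theorem mem_omegaOne_center {A : Subgroup G} {v : G} :
    v ∈ omegaOne 2 (A ⊓ Subgroup.centralizer (A : Set G)) ↔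
      (v ∈ A ∧ v ∈ Subgroup.centralizer (A : Set G)) ∧ v ^ 2 = 1 := by
  refine ⟨fun hv => ?_, fun hv => Subgroup.subset_closure ⟨Subgroup.mem_inf.mpr hv.1, hv.2⟩⟩
  induction hv using Subgroup.closure_induction with
  | mem y hy => exact ⟨Subgroup.mem_inf.mp hy.1, hy.2⟩
  | one => exact ⟨⟨A.one_mem, Subgroup.one_mem _⟩, one_pow 2⟩
  | mul a b _ _ ha hb =>
    refine ⟨⟨A.mul_mem ha.1.1 hb.1.1, Subgroup.mul_mem _ ha.1.2 hb.1.2⟩, ?_⟩
    have hc : Commute a b := hb.1.2 a ha.1.1
    rw [hc.mul_pow, ha.2, hb.2, one_mul]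
  | inv a _ ha =>
    exact ⟨⟨A.inv_mem ha.1.1, Subgroup.inv_mem _ ha.1.2⟩, by rw [inv_pow, ha.2, inv_one]⟩

/-- `Ω₁(Z(A))` is stable under elements normalizing `A`. -/
theorem omegaOne_center_conj {A : Subgroup G} {g v : G}
    (hg : g ∈ Subgroup.normalizer (A : Set G))
    (hv : v ∈ omegaOne 2 (A ⊓ Subgroup.centralizer (A : Set G))) :
    g * v * g⁻¹ ∈ omegaOne 2 (A ⊓ Subgroup.centralizer (A : Set G)) := by
  rw [mem_omegaOne_center] at hv ⊢
  refine ⟨⟨(Subgroup.mem_normalizer_iff.mp hg v).mp hv.1.1, fun w hw => ?_⟩, ?_⟩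
  · have hw' : g⁻¹ * w * g ∈ A := by
      rw [Subgroup.mem_normalizer_iff.mp hg]; simpa [mul_assoc] using hw
    calc w * (g * v * g⁻¹) = g * ((g⁻¹ * w * g) * v) * g⁻¹ := by group
      _ = g * (v * (g⁻¹ * w * g)) * g⁻¹ := by rw [hv.1.2 _ hw']
      _ = g * v * g⁻¹ * w := by group
  · rw [conj_pow, hv.2]; group

/-- If a perfect subgroup does not centralize a subgroup, one of its elements of odd order does
not. -/
theorem exists_odd_not_commute [Finite G] {L : Subgroup G} (hL : ⁅L, L⁆ = L) {V : Subgroup G}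
    (h : ⁅V, L⁆ ≠ ⊥) : ∃ x ∈ L, Odd (orderOf x) ∧ ∃ v ∈ V, ¬ Commute x v := by
  by_contra hne
  push Not at hne
  apply h
  rw [Subgroup.commutator_eq_bot_iff_le_centralizer]
  intro v hv
  have : L ≤ Subgroup.centralizer ({v} : Set G) := by
    conv_lhs => rw [← perfect_le_closure_odd hL]
    rw [Subgroup.closure_le]
    rintro x ⟨hx, ho⟩
    exact Subgroup.mem_centralizer_singleton_iff.mpr (hne x hx ho v hv).eq
  exact fun y hy => Subgroup.mem_centralizer_singleton_iff.mp (this hy)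

end Cfsg.Agent.H16
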