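import Cfsg.Agent.H16.SuzU0Data

/-! Kernel checks of facts 0 to 2187: Suz, subgroup U0. -/

set_option autoImplicit false

namespace Cfsg.Agent.H16.SuzU0

open EnumData

theorem facts_0 : allFrom (fun i => data.checkFact i) 2000 0 = true := by decide +kernel

theorem facts_2000 : allFrom (fun i => data.checkFact i) 187 2000 = true := by decide +kernel

end Cfsg.Agent.H16.SuzU0
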