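import Cfsg.Agent.H16.SuzUData

/-! Kernel checks of facts 96000 to 98631: Suz, subgroup U. -/

set_option autoImplicit false

namespace Cfsg.Agent.H16.SuzU

open EnumData

theorem facts_96000 : allFrom (fun i => data.checkFact i) 2000 96000 = true := by decide +kernel

theorem facts_98000 : allFrom (fun i => data.checkFact i) 631 98000 = true := by decide +kernel

end Cfsg.Agent.H16.SuzU
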