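import Cfsg.Agent.H16.SuzUWeak

/-! Kernel checks of rows from 0: Suz, subgroup U. -/

set_option autoImplicit false

namespace Cfsg.Agent.H16.SuzU

open EnumData

theorem rows_0 : allFrom (fun i => weakData.checkRow i) 1000 0 = true := by decide +kernel

theorem rows_1000 : allFrom (fun i => weakData.checkRow i) 1000 1000 = true := by decide +kernel

theorem rows_2000 : allFrom (fun i => weakData.checkRow i) 1000 2000 = true := by decide +kernel

theorem rows_3000 : allFrom (fun i => weakData.checkRow i) 1000 3000 = true := by decide +kernel

theorem rows_4000 : allFrom (fun i => weakData.checkRow i) 1000 4000 = true := by decide +kernel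

theorem rows_5000 : allFrom (fun i => weakData.checkRow i) 1000 5000 = true := by decide +kernel

theorem rows_6000 : allFrom (fun i => weakData.checkRow i) 1000 6000 = true := by decide +kernel

theorem rows_7000 : allFrom (fun i => weakData.checkRow i) 1000 7000 = true := by decide +kernel

theorem rows_8000 : allFrom (fun i => weakData.checkRow i) 1000 8000 = true := by decide +kernel

theorem rows_9000 : allFrom (fun i => weakData.checkRow i) 1000 9000 = true := by decide +kernel

theorem rows_10000 : allFrom (fun i => weakData.checkRow i) 1000 10000 = true := by decide +kernel

theorem rows_11000 : allFrom (fun i => weakData.checkRow i) 1000 11000 = true := by decide +kernel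

theorem rows_12000 : allFrom (fun i => weakData.checkRow i) 1000 12000 = true := by decide +kernel

end Cfsg.Agent.H16.SuzU
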