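import Cfsg.Agent.H16.SuzUWeak

/-! Kernel checks of rows from 13000: Suz, subgroup U. -/

set_option autoImplicit false

namespace Cfsg.Agent.H16.SuzU

open EnumData

theorem rows_13000 : allFrom (fun i => weakData.checkRow i) 1000 13000 = true := by decide +kernel

theorem rows_14000 : allFrom (fun i => weakData.checkRow i) 1000 14000 = true := by decide +kernel

theorem rows_15000 : allFrom (fun i => weakData.checkRow i) 1000 15000 = true := by decide +kernel

theorem rows_16000 : allFrom (fun i => weakData.checkRow i) 1000 16000 = true := by decide +kernel

theorem rows_17000 : allFrom (fun i => weakData.checkRow i) 1000 17000 = true := by decide +kernel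

theorem rows_18000 : allFrom (fun i => weakData.checkRow i) 1000 18000 = true := by decide +kernel

theorem rows_19000 : allFrom (fun i => weakData.checkRow i) 1000 19000 = true := by decide +kernel

theorem rows_20000 : allFrom (fun i => weakData.checkRow i) 1000 20000 = true := by decide +kernel

theorem rows_21000 : allFrom (fun i => weakData.checkRow i) 1000 21000 = true := by decide +kernel

theorem rows_22000 : allFrom (fun i => weakData.checkRow i) 880 22000 = true := by decide +kernel

end Cfsg.Agent.H16.SuzU
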