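import Cfsg.Agent.H16.SuzUData
import Cfsg.Agent.H16.SuzURows1
import Cfsg.Agent.H16.SuzURows0
import Cfsg.Agent.H16.SuzUFacts0
import Cfsg.Agent.H16.SuzUFacts1
import Cfsg.Agent.H16.SuzUFacts2
import Cfsg.Agent.H16.SuzUFacts3
import Cfsg.Agent.H16.SuzUFacts4

/-! Kernel checks of the certificate: Suz, subgroup U. -/

set_option autoImplicit false

namespace Cfsg.Agent.H16.SuzU

open EnumData

theorem weak_checkFact (i : Nat) : weakData.checkFact i = data.checkFact i := rfl

theorem base_check : weakData.checkBase = true := by decide +kernel

/-- The certificate is valid. -/
theorem valid : weakData.Valid where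
  facts_ok :=
    fun i hi => (weak_checkFact i).trans ((allFrom_extend (allFrom_extend (allFrom_extend (allFrom_extend (allFrom_extend (allFrom_extend (allFrom_extend (allFrom_extend (allFrom_extend (allFrom_extend (allFrom_extend (allFrom_extend (allFrom_extend (allFrom_extend (allFrom_extend (allFrom_extend (allFrom_extend (allFrom_extend (allFrom_extend (allFrom_extend (allFrom_extend (allFrom_extend (allFrom_extend (allFrom_extend (allFrom_extend (allFrom_extend (allFrom_extend (allFrom_extend (allFrom_extend (allFrom_extend (allFrom_extend (allFrom_extend (allFrom_extend (allFrom_extend (allFrom_extend (allFrom_extend (allFrom_extend (allFrom_extend (allFrom_extend (allFrom_extend (allFrom_extend (allFrom_extend (allFrom_extend (allFrom_extend (allFrom_extend (allFrom_extend (allFrom_extend (allFrom_extend (allFrom_extend (allFrom_extend allFrom_nil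
    facts_0)
    facts_2000)
    facts_4000)
    facts_6000)
    facts_8000)
    facts_10000)
    facts_12000)
    facts_14000)
    facts_16000)
    facts_18000)
    facts_20000)
    facts_22000)
    facts_24000)
    facts_26000)
    facts_28000)
    facts_30000)
    facts_32000)
    facts_34000)
    facts_36000)
    facts_38000)
    facts_40000)
    facts_42000)
    facts_44000)
    facts_46000)
    facts_48000)
    facts_50000)
    facts_52000)
    facts_54000)
    facts_56000)
    facts_58000)
    facts_60000)
    facts_62000)
    facts_64000)
    facts_66000)
    facts_68000)
    facts_70000)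
    facts_72000)
    facts_74000)
    facts_76000)
    facts_78000)
    facts_80000)
    facts_82000)
    facts_84000)
    facts_86000)
    facts_88000)
    facts_90000)
    facts_92000)
    facts_94000)
    facts_96000)
    facts_98000) i hi)
  rows_ok :=
    (allFrom_extend (allFrom_extend (allFrom_extend (allFrom_extend (allFrom_extend (allFrom_extend (allFrom_extend (allFrom_extend (allFrom_extend (allFrom_extend (allFrom_extend (allFrom_extend (allFrom_extend (allFrom_extend (allFrom_extend (allFrom_extend (allFrom_extend (allFrom_extend (allFrom_extend (allFrom_extend (allFrom_extend (allFrom_extend (allFrom_extend allFrom_nil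
    rows_0)
    rows_1000)
    rows_2000)
    rows_3000)
    rows_4000)
    rows_5000)
    rows_6000)
    rows_7000)
    rows_8000)
    rows_9000)
    rows_10000)
    rows_11000)
    rows_12000)
    rows_13000)
    rows_14000)
    rows_15000)
    rows_16000)
    rows_17000)
    rows_18000)
    rows_19000)
    rows_20000)
    rows_21000)
    rows_22000)
  base_ok := base_check

end Cfsg.Agent.H16.SuzU
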