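import Cfsg.Agent.H16.SuzOrder
import Cfsg.Agent.H16.SuzUCheck
import Cfsg.Agent.H16.SuzU0Check
import Cfsg.Agent.H16.SuzU1Check

/-! The index of the subgroup on `a, b, c, d, f, g` in the presented Suzuki group. -/

set_option autoImplicit false

namespace Cfsg.Agent.H16.SuzOrder

open Cfsg.Spor EnumData CoxEnum

theorem stepU1 : checkStep SuzU1.weakData baseWords [0,1,2,3,5] [0,1,2,3] = true := by
  decide +kernel
theorem stepU0 : checkStep SuzU0.weakData baseWords [0,1,2,3,5,6] [0,1,2,3,5] = true := by
  decide +kernel
theorem stepUTop : checkStep SuzU.weakData baseWords (List.range 7) [0,1,2,3,5,6] = true := by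
  decide +kernel

theorem uSub_prod : SuzU0.weakData.n * (SuzU1.weakData.n * (SuzT2.weakData.n *
    (SuzT3.weakData.n * 1))) = 19595520 := by decide +kernel

theorem u_n : SuzU.weakData.n = 22880 := by decide +kernel

/-- the subgroup generated by `a, b, c, d, f, g` -/
noncomputable abbrev uSub : Subgroup Suz := letterSub SuzH.val [0,1,2,3,5,6]

theorem uSub_finite_card_le : Finite uSub ∧ Nat.card uSub ≤ 19595520 := by
  have h3 := tower_step wordGroupSuz SuzT3.valid step3 (letterSub_nil _)
  have h2 := tower_step wordGroupSuz SuzT2.valid step2 h3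
  have h1 := tower_step wordGroupSuz SuzU1.valid stepU1 h2
  have h0 := tower_step wordGroupSuz SuzU0.valid stepU0 h1
  rw [uSub_prod] at h0
  exact h0

theorem uSub_index : uSub.index = 22880 := by
  have hG := card_and_faithful.1
  have ht := tower_step wordGroupSuz SuzU.valid stepUTop (N := Nat.card uSub)
    ⟨uSub_finite_card_le.1, le_rfl⟩
  have htop : letterSub SuzH.val (List.range 7) = ⊤ := letterSub_all SuzH.presCheck
  rw [htop, Subgroup.card_top, u_n, hG] at ht
  have h2 := uSub_finite_card_le.2
  have h3 : Nat.card uSub = 19595520 := by omega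
  have h := Subgroup.index_mul_card uSub
  rw [h3, hG] at h
  exact Nat.eq_of_mul_eq_mul_right (by norm_num : 0 < 19595520) (h.trans (by norm_num))

end Cfsg.Agent.H16.SuzOrder
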