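import Cfsg.Agent.H16.SuzUData

/-! The weak certificate: Suz, subgroup U. -/

set_option autoImplicit false

namespace Cfsg.Agent.H16.SuzU

open EnumData

/-- the certificate without tracing relators on the table -/
def weakData : EnumData := { data with nbase := 0 }

end Cfsg.Agent.H16.SuzU
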